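import Cfsg.Agent.Lib.CharDeep.BrauerDeg.Core

/-!
# Faithful irreducible characters of degree `p - 2`: the restriction to `C_G(P)`

`P` has order `p ≥ 7`, `p ^ 2 ∤ |G|`, `P` is not normal and `ζ` is a faithful irreducible character of degree
`p - 2`.  Then `|N_G(P) : C_G(P)| = 2` and `ζ` restricted to `C_G(P)` is `θ (reg_P - κ - κ⁻¹)`, with `θ` linear.
-/

set_option autoImplicit false
set_option linter.style.haveILetI false
set_option linter.unusedSectionVars false

namespace Cfsg.Agent.Lib.Blk89.DegP2A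

open Cfsg
open Cfsg.Agent.Lib.Blocks.Local Cfsg.Agent.Lib.Blocks.Central Cfsg.Agent.Lib.Blocks.General
open Cfsg.Agent.Lib.Blocks.Induced
open Cfsg.Agent.Lib.Char.Induced Cfsg.Agent.Lib.Char.Ortho Cfsg.Agent.Lib.Char.Linear
open Cfsg.Agent.Lib.Char.Basic Cfsg.Agent.Lib.Char.GenLattice Cfsg.Agent.Lib.Char.Complete
open Cfsg.Agent.Lib.Char.Degree
open Cfsg.Agent.Lib.ExcP.Gram Cfsg.Agent.Lib.ExcP.Inst Cfsg.Agent.Lib.ExcP.Dual
open Cfsg.Agent.Lib.ModRep.Prime Cfsg.Agent.Lib.ModRep.ThGram Cfsg.Agent.Lib.ModRep.ThIdem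
open Cfsg.Agent.Lib.ModRep.ThDeg Cfsg.Agent.Lib.ModRep.Numerics2 Cfsg.Agent.Lib.ModRep.BlockTh
open Cfsg.Agent.Lib.CharDeep.BrauerDeg
open Cfsg.Agent.Lib.D1.CountN
open scoped ComplexConjugate

universe u

section Weighted

variable {H : Type u} [Group H] [Fintype H] [Fintype (IrrCharacter H)]

/-- The weighted sum of multiplicities of distinct irreducible constituents is at most the degree. -/
theorem sum_nn_deg_le {χ : H → ℂ} (hχ : IsCharacter H χ) {ι : Type*} [Fintype ι] (f : ι → IrrCharacter H)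
    (hf : Function.Injective f) {N : ℕ} (hN : χ 1 = N) :
    ∑ i, nn (f i : H → ℂ) χ * charDegree (f i : H → ℂ) ≤ N := by
  classical
  obtain ⟨m, hm⟩ := exists_nat_combination hχ
  have h1 : ∀ i : IrrCharacter H, nn (i : H → ℂ) χ = m i := nn_eq_mult hχ hm
  have h5 : (N : ℂ) = ((∑ i, m i * charDegree (i : H → ℂ) : ℕ) : ℂ) := by
    rw [← hN, hm]
    push_cast
    rw [Finset.sum_apply]
    refine Finset.sum_congr rfl fun i _ => ?_
    rw [Pi.smul_apply, charDegree_natCast (isCharacter_of_isIrrCharacter i.2)]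
    simp
  have h6 : N = ∑ i, m i * charDegree (i : H → ℂ) := by exact_mod_cast h5
  rw [h6]
  simp only [h1]
  calc ∑ i, m (f i) * charDegree (f i : H → ℂ)
      = ∑ j ∈ Finset.univ.image f, m j * charDegree (j : H → ℂ) := by
        rw [Finset.sum_image (fun a _ b _ h => hf h)]
    _ ≤ ∑ j, m j * charDegree (j : H → ℂ) := Finset.sum_le_sum_of_subset (Finset.subset_univ _)

/-- If the constituents exhaust the degree, the character is their combination. -/
theorem eq_sum_of_deg {χ : H → ℂ} (hχ : IsCharacter H χ) {ι : Type*} [Fintype ι] (f : ι → IrrCharacter H)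
    (hf : Function.Injective f) {N : ℕ} (hN : χ 1 = N)
    (h : ∑ i, nn (f i : H → ℂ) χ * charDegree (f i : H → ℂ) = N) (g : H) :
    χ g = ∑ i, (nn (f i : H → ℂ) χ : ℂ) * (f i : H → ℂ) g := by
  classical
  obtain ⟨m, hm⟩ := exists_nat_combination hχ
  have h1 : ∀ i : IrrCharacter H, nn (i : H → ℂ) χ = m i := nn_eq_mult hχ hm
  have h5 : (N : ℂ) = ((∑ i, m i * charDegree (i : H → ℂ) : ℕ) : ℂ) := by
    rw [← hN, hm]
    push_cast
    rw [Finset.sum_apply]
    refine Finset.sum_congr rfl fun i _ => ?_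
    rw [Pi.smul_apply, charDegree_natCast (isCharacter_of_isIrrCharacter i.2)]
    simp
  have h6 : N = ∑ i, m i * charDegree (i : H → ℂ) := by exact_mod_cast h5
  simp only [h1] at h ⊢
  have h7 : ∑ i, m (f i) * charDegree (f i : H → ℂ) = ∑ j ∈ Finset.univ.image f, m j * charDegree (j : H → ℂ) := by
    rw [Finset.sum_image (fun a _ b _ h => hf h)]
  have h8 : ∑ j ∈ (Finset.univ \ Finset.univ.image f), m j * charDegree (j : H → ℂ) = 0 := by
    have h9 := Finset.sum_sdiff (Finset.subset_univ (Finset.univ.image f))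
      (f := fun j : IrrCharacter H => m j * charDegree (j : H → ℂ))
    rw [← h7, h, h6] at h9
    omega
  have h10 : ∀ j ∈ (Finset.univ \ Finset.univ.image f), m j = 0 := by
    intro j hj
    have h11 := (Finset.sum_eq_zero_iff.mp h8) j hj
    have h12 : charDegree (j : H → ℂ) ≠ 0 := (charDegree_pos j.2).ne'
    exact (Nat.mul_eq_zero.mp h11).resolve_right h12
  rw [hm, Finset.sum_apply]
  have h13 : ∑ i, (m i • (i : H → ℂ)) g = ∑ j ∈ Finset.univ.image f, (m j : ℂ) * (j : H → ℂ) g := by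
    rw [← Finset.sum_sdiff (Finset.subset_univ (Finset.univ.image f))]
    rw [Finset.sum_eq_zero, zero_add]
    · refine Finset.sum_congr rfl fun i _ => ?_
      simp
    · intro j hj
      simp [h10 j hj]
  rw [h13, Finset.sum_image (fun a _ b _ h => hf h)]

end Weighted

variable {G : Type u} [Group G] {p : ℕ} [hp : Fact p.Prime] {P : Subgroup G}

section Family

variable [Fintype G] [Fintype (Cn P)] [Fintype (Nn P)] [Fintype (DD P p)] [Fintype (IrrCharacter G)]
  [Fintype (IrrCharacter (Cn P))] {M : Ideal AlgInt}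

/-- A family with the inertial index as `e`. -/
theorem exists_fam_e (hM : IsPModular p M) (hP : Nat.card P = p)
    (hp2 : ¬ p ^ 2 ∣ Nat.card G) (θ : IrrCharacter (Cn P))
    (hθP : ∀ x : Cn P, (x : G) ∈ P → (θ : Cn P → ℂ) x = (θ : Cn P → ℂ) 1) :
    ∃ F : Fam M P p θ, F.e = ee P (θ : Cn P → ℂ) := by
  classical
  haveI := isPrime_of_pModular hM
  obtain ⟨B, hind⟩ := Cfsg.Agent.Lib.Blocks.Induced.exists_induced hM (isBrauerPair_Cn hP)
    (b := blockOf M (θ : Cn P → ℂ)) ⟨θ, rfl⟩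
  have hcount : ∀ S : Finset (IrrCharacter G), (∀ χ, χ ∈ B → ∃ (c : IrrCharacter G → ℤ) (m : ℤ),
      ¬ (p : ℤ) ∣ m ∧ ∀ g, ¬ p ∣ orderOf g → (m : ℂ) * (χ : G → ℂ) g = ∑ ψ ∈ S, (c ψ : ℂ) * (ψ : G → ℂ) g) →
      ee P (θ : Cn P → ℂ) ≤ S.card := fun S hS =>
    Cfsg.Agent.Lib.D1.Count.card_le hM hP hp2 θ hθP hind _ (fun g => Iff.rfl) _ rfl S hS
  have hC := structure_T (P := P) hM hP hp2 θ hθP hind
    (T := Tt P (θ : Cn P → ℂ)) (fun g => Iff.rfl)
    (e := ee P (θ : Cn P → ℂ)) rfl rfl hcount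
  obtain ⟨X, Y, εX, ε, ν, h1, h2, h3, h4, h5, h6, h7, h8, h9, h10, h11⟩ := hC
  have hN := card_stabN_of_relIndex (isClassFunction_of_isIrrCharacter θ.2)
    (T := Tt P (θ : Cn P → ℂ)) (fun g => Iff.rfl) rfl
  exact ⟨⟨B, hind, X, Y, εX, ε, ν, _, h1, h2, h4, h5, h6, h7, h8, h9,
    fun b => card_class hP hp2 θ.2 hN b, h3, h10, h11⟩, rfl⟩

/-- The indices. -/
theorem ee_dvd (θ : IrrCharacter (Cn P)) :
    0 < ee P (θ : Cn P → ℂ) ∧ ee P (θ : Cn P → ℂ) ∣ (Cn P).relIndex (Nn P) ∧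
      Nat.card (Nn P) = (Cn P).relIndex (Nn P) / ee P (θ : Cn P → ℂ) * ee P (θ : Cn P → ℂ) * Nat.card (Cn P) :=
  card_Nn_of_relIndex (isClassFunction_of_isIrrCharacter θ.2) (T := Tt P (θ : Cn P → ℂ)) (fun g => Iff.rfl) rfl rfl

/-- The stabilizer of the trivial character is the normalizer. -/
theorem ee_trv : ee P (trv (Cn P) : Cn P → ℂ) = (Cn P).relIndex (Nn P) := by
  have h : Tt P (trv (Cn P) : Cn P → ℂ) = Nn P := by
    ext g
    constructor
    · exact fun h => h.1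
    · exact fun h => ⟨h, fun _ _ _ => rfl⟩
  rw [ee, h]

/-- The index of the centralizer divides `p - 1`. -/
theorem relIndex_dvd (hM : IsPModular p M) (hP : Nat.card P = p) (hp2 : ¬ p ^ 2 ∣ Nat.card G) :
    (Cn P).relIndex (Nn P) ∣ p - 1 := by
  obtain ⟨F, hF⟩ := exists_fam_e hM hP hp2 (trv (Cn P)) (fun _ _ => rfl)
  rw [← ee_trv, ← hF]
  exact ⟨_, by rw [← F.hYe, mul_comm]⟩

/-- The card of a fibre of `ν`. -/
theorem card_fib {θ : IrrCharacter (Cn P)} (F : Fam M P p θ) (d₂ : DD P p) :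
    open scoped Classical in
    (Finset.univ.filter (fun d => F.ν d = F.ν d₂)).card = F.e := by
  classical
  rw [← F.hcls d₂, Nat.card_eq_fintype_card, Fintype.card_subtype]
  congr 1
  ext a
  simp [F.hν]

/-- The family of twists of `θ`. -/
noncomputable def optF (θ : IrrCharacter (Cn P)) : Option (DD P p) → IrrCharacter (Cn P) := fun o => match o with
  | none => θ
  | some d => twI d.1 θ

theorem optF_inj (hP : Nat.card P = p) (hp2 : ¬ p ^ 2 ∣ Nat.card G) (θ : IrrCharacter (Cn P))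
    (hθP : ∀ x : Cn P, (x : G) ∈ P → (θ : Cn P → ℂ) x = (θ : Cn P → ℂ) 1) :
    Function.Injective (optF (p := p) θ) := by
  have hθ1 : (θ : Cn P → ℂ) 1 ≠ 0 := irr_one_ne_zero θ.2
  have hone : ∀ d : DD P p, twI d.1 θ ≠ θ := by
    intro d hd
    have h1 : tw d.1 (θ : Cn P → ℂ) = tw (1 : Cn P →* ℂˣ) (θ : Cn P → ℂ) := by
      have h2 := congrArg Subtype.val hd
      funext c
      have h3 := congrFun h2 c
      simpa [twI, tw] using h3
    exact d.2.2 (tw_inj hP hp2 d.2.1 (by simp) hθ1 hθP hθP h1).1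
  rintro (_ | a) (_ | b) h
  · rfl
  · exact absurd h.symm (hone b)
  · exact absurd h (hone a)
  · have h1 : tw a.1 (θ : Cn P → ℂ) = tw b.1 (θ : Cn P → ℂ) := congrArg Subtype.val h
    have h2 := (tw_inj hP hp2 a.2.1 b.2.1 hθ1 hθP hθP h1).1
    rw [show a = b from Subtype.ext h2]

theorem charDegree_tw (κ : Cn P →* ℂˣ) (θ : Cn P → ℂ) : charDegree (tw κ θ) = charDegree θ := by
  simp [charDegree, tw]

/-- The weighted bound. -/
theorem sum_mult_deg_le (hP : Nat.card P = p) (hp2 : ¬ p ^ 2 ∣ Nat.card G) {ξ : G → ℂ} (hξ : IsCharacter G ξ)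
    {n : ℕ} (hn : ξ 1 = n) (θ : IrrCharacter (Cn P))
    (hθP : ∀ x : Cn P, (x : G) ∈ P → (θ : Cn P → ℂ) x = (θ : Cn P → ℂ) 1) :
    (nn (θ : Cn P → ℂ) (rs P ξ) + ∑ d : DD P p, nn (tw d.1 (θ : Cn P → ℂ)) (rs P ξ)) *
      charDegree (θ : Cn P → ℂ) ≤ n := by
  classical
  have h1 := sum_nn_deg_le (isChar_rs (P := P) hξ) (optF (p := p) θ) (optF_inj hP hp2 θ hθP) (N := n)
    (by simpa [rs] using hn)
  rw [Fintype.sum_option] at h1
  simp only [optF, twI, charDegree_tw] at h1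
  rw [add_mul, Finset.sum_mul]
  exact h1

/-- Equality in the weighted bound. -/
theorem val_of_eq (hP : Nat.card P = p) (hp2 : ¬ p ^ 2 ∣ Nat.card G) {ξ : G → ℂ} (hξ : IsCharacter G ξ)
    {n : ℕ} (hn : ξ 1 = n) (θ : IrrCharacter (Cn P))
    (hθP : ∀ x : Cn P, (x : G) ∈ P → (θ : Cn P → ℂ) x = (θ : Cn P → ℂ) 1)
    (h : (nn (θ : Cn P → ℂ) (rs P ξ) + ∑ d : DD P p, nn (tw d.1 (θ : Cn P → ℂ)) (rs P ξ)) *
      charDegree (θ : Cn P → ℂ) = n) (c : Cn P) :
    ξ c = (nn (θ : Cn P → ℂ) (rs P ξ) : ℂ) * (θ : Cn P → ℂ) c +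
      ∑ d : DD P p, (nn (tw d.1 (θ : Cn P → ℂ)) (rs P ξ) : ℂ) * (tw d.1 (θ : Cn P → ℂ) c) := by
  classical
  have h1 := eq_sum_of_deg (isChar_rs (P := P) hξ) (optF (p := p) θ) (optF_inj hP hp2 θ hθP) (N := n)
    (by simpa [rs] using hn) (by
      rw [Fintype.sum_option]
      simp only [optF, twI, charDegree_tw]
      rw [add_mul, Finset.sum_mul] at h
      exact h) c
  rw [Fintype.sum_option] at h1
  simpa only [optF, twI, rs] using h1

/-- The orbit bound. -/
theorem orbit_bound (hP : Nat.card P = p) (hp2 : ¬ p ^ 2 ∣ Nat.card G) {ξ : G → ℂ} (hξ : IsCharacter G ξ)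
    {n : ℕ} (hn : ξ 1 = n) (θ : IrrCharacter (Cn P))
    (hθP : ∀ x : Cn P, (x : G) ∈ P → (θ : Cn P → ℂ) x = (θ : Cn P → ℂ) 1) (d₁ : DD P p)
    (hd₁ : nn (tw d₁.1 (θ : Cn P → ℂ)) (rs P ξ) ≠ 0) {f : ℕ}
    (hf : Nat.card (Nn P) = f * Nat.card (Cn P)) : f * charDegree (θ : Cn P → ℂ) ≤ n := by
  classical
  have hex : ∀ d : {d // d ∈ orbF d₁}, ∃ y : Nn P, d.1.1 = cj P y d₁.1 := by
    rintro ⟨d, hd⟩
    simpa only [orbF, Finset.mem_filter, Finset.mem_univ, true_and] using hd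
  choose y hy using hex
  have htwirr : IsIrrCharacter (Cn P) (tw d₁.1 (θ : Cn P → ℂ)) := isIrr_tw d₁.1 θ.2
  let i : {d // d ∈ orbF d₁} → IrrCharacter (Cn P) := fun d =>
    ⟨cjt P (y d) (tw d₁.1 (θ : Cn P → ℂ)), isIrr_cjt _ htwirr⟩
  have hθ1 : (θ : Cn P → ℂ) 1 ≠ 0 := irr_one_ne_zero θ.2
  have hi : Function.Injective i := by
    intro a b hab
    have h1 : cjt P (y a) (tw d₁.1 (θ : Cn P → ℂ)) = cjt P (y b) (tw d₁.1 (θ : Cn P → ℂ)) :=
      congrArg Subtype.val hab
    rw [cjt_tw, cjt_tw, ← hy a, ← hy b] at h1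
    have h2 := (tw_inj hP hp2 a.1.2.1 b.1.2.1 (by rw [cjt_apply, map_one]; exact hθ1)
      (cjt_ker hθP _) (cjt_ker hθP _) h1).1
    exact Subtype.ext (Subtype.ext h2)
  have h1 := sum_nn_deg_le (isChar_rs (P := P) hξ) i hi (N := n) (by simpa [rs] using hn)
  have hcf := isClassFunction_of_isCharacter hξ
  have h2 : ∀ d, nn (i d : Cn P → ℂ) (rs P ξ) = nn (tw d₁.1 (θ : Cn P → ℂ)) (rs P ξ) := by
    intro d
    show ⌊(classInner (cjt P (y d) (tw d₁.1 (θ : Cn P → ℂ))) (rs P ξ)).re⌋₊ = _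
    rw [classInner_cjt_rs hcf]
    rfl
  have h3 : ∀ d, charDegree (i d : Cn P → ℂ) = charDegree (θ : Cn P → ℂ) := by
    intro d
    have h4 : charDegree (i d : Cn P → ℂ) = charDegree (tw d₁.1 (θ : Cn P → ℂ)) := by
      show charDegree (cjt P (y d) (tw d₁.1 (θ : Cn P → ℂ))) = _
      simp only [charDegree, cjt_apply, map_one]
    rw [h4, charDegree_tw]
  simp only [h2, h3] at h1
  rw [Finset.sum_const, Finset.card_univ, Fintype.card_coe, card_orbF hP hp2 d₁ hf, smul_eq_mul] at h1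
  refine le_trans ?_ h1
  exact Nat.mul_le_mul_left _ (Nat.le_mul_of_pos_left _ (Nat.pos_of_ne_zero hd₁))

/-- The structure of the restriction of `ζ`. -/
structure S1 (M : Ideal AlgInt) (P : Subgroup G) (p : ℕ) [Fact p.Prime] [Fintype (Cn P)] [Fintype (Nn P)] [Fintype (DD P p)]
    (ζ : IrrCharacter G) where
  θ : IrrCharacter (Cn P)
  hθP : ∀ x : Cn P, (x : G) ∈ P → (θ : Cn P → ℂ) x = (θ : Cn P → ℂ) 1
  F : Fam M P p θ
  d₁ : DD P p
  hdeg : charDegree (θ : Cn P → ℂ) = 1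
  hf : Nat.card (Nn P) = 2 * Nat.card (Cn P)
  he : F.e = 2
  hε : F.ε = -1
  hν : F.ν d₁ = ζ
  ha : nn (θ : Cn P → ℂ) (rs P (ζ : G → ℂ)) = 1
  hb : ∀ d : DD P p, F.ν d = ζ → nn (tw d.1 (θ : Cn P → ℂ)) (rs P (ζ : G → ℂ)) = 0
  hb' : ∀ d : DD P p, F.ν d ≠ ζ → nn (tw d.1 (θ : Cn P → ℂ)) (rs P (ζ : G → ℂ)) = 1
  hsum : ∀ c : Cn P, (ζ : G → ℂ) c = (nn (θ : Cn P → ℂ) (rs P (ζ : G → ℂ)) : ℂ) * (θ : Cn P → ℂ) c +
      ∑ d : DD P p, (nn (tw d.1 (θ : Cn P → ℂ)) (rs P (ζ : G → ℂ)) : ℂ) * (tw d.1 (θ : Cn P → ℂ) c)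

set_option maxHeartbeats 1000000 in
/-- **The first step.** -/
theorem exists_S1 (hM : IsPModular p M) (hP : Nat.card P = p) (hp2 : ¬ p ^ 2 ∣ Nat.card G) (hp7 : 7 ≤ p)
    (hnn : ¬ P.Normal) (ζ : IrrCharacter G) (hfaith : ∀ g, (ζ : G → ℂ) g = (ζ : G → ℂ) 1 → g = 1)
    (hdeg : charDegree (ζ : G → ℂ) + 2 = p) : Nonempty (S1 M P p ζ) := by
  classical
  have hζ := isCharacter_of_isIrrCharacter ζ.2
  have hcn : (ζ : G → ℂ) 1 = (charDegree (ζ : G → ℂ) : ℂ) := (charDegree_natCast hζ).symm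
  have hcn' : charDegree (ζ : G → ℂ) = p - 2 := by omega
  obtain ⟨u₀, hu₀⟩ : ∃ u : P, u ≠ 1 := by
    have h : Nontrivial P := by
      apply Finite.one_lt_card_iff_nontrivial.mp
      rw [hP]
      exact hp.out.one_lt
    exact exists_ne 1
  have hnt : ∃ x ∈ P, (ζ : G → ℂ) x ≠ (ζ : G → ℂ) 1 :=
    ⟨u₀, u₀.2, fun h => hu₀ (Subtype.ext (hfaith _ h))⟩
  obtain ⟨θ, d₀, hθP, hd₀⟩ := exists_pair hP hp2 hζ hnt
  obtain ⟨F, hFe⟩ := exists_fam_e hM hP hp2 θ hθP
  obtain ⟨he0, hef, hNc⟩ := ee_dvd θ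
  rw [← hFe] at he0 hef hNc
  have hfd := relIndex_dvd hM hP hp2
  have hsum := sum_mult_deg_le hP hp2 hζ hcn θ hθP
  have hdθ : 1 ≤ charDegree (θ : Cn P → ℂ) := charDegree_pos θ.2
  have hcard : Fintype.card (DD P p) = p - 1 := by
    rw [← Nat.card_eq_fintype_card, card_DD hP hp2]
  have hrel := fun d => mult_rel F d ζ
  set a := nn (θ : Cn P → ℂ) (rs P (ζ : G → ℂ)) with ha
  set b : DD P p → ℕ := fun d => nn (tw d.1 (θ : Cn P → ℂ)) (rs P (ζ : G → ℂ)) with hb
  have hrel' : ∀ d, (b d : ℤ) = a + (- (if ζ ∈ F.X then F.εX ζ else 0)) + (if F.ν d = ζ then F.ε else 0) := hrel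
  have hsum' : (a + ∑ d, b d) * charDegree (θ : Cn P → ℂ) ≤ p - 2 := by
    rw [← hcn']
    exact hsum
  have hsumle : a + ∑ d, b d ≤ p - 2 := le_trans (Nat.le_mul_of_pos_right _ hdθ) hsum'
  have hall : ¬ ∀ d, 1 ≤ b d := by
    intro h
    have h1 : ∑ d : DD P p, 1 ≤ ∑ d, b d := Finset.sum_le_sum fun d _ => h d
    simp only [Finset.sum_const, Finset.card_univ, hcard, smul_eq_mul, mul_one] at h1
    omega
  have hb0 : b d₀ ≠ 0 := hd₀
  -- `ζ` is exceptional
  have hnotX : ζ ∉ F.X := by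
    intro hX
    apply hall
    intro d
    have h1 := hrel' d
    have h2 := hrel' d₀
    have hnY : ∀ d, F.ν d ≠ ζ := by
      intro d hd
      exact Finset.disjoint_left.mp F.hdisj hX ((F.hY ζ).mpr ⟨d, hd⟩)
    rw [if_pos hX, if_neg (hnY d)] at h1
    rw [if_pos hX, if_neg (hnY d₀)] at h2
    omega
  have hY : ∃ d₁, F.ν d₁ = ζ := by
    by_contra hcon
    push Not at hcon
    apply hall
    intro d
    have h1 := hrel' d
    have h2 := hrel' d₀
    rw [if_neg hnotX, if_neg (hcon d)] at h1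
    rw [if_neg hnotX, if_neg (hcon d₀)] at h2
    omega
  obtain ⟨d₁, hd₁⟩ := hY
  have hrel2 : ∀ d, (b d : ℤ) = a + (if F.ν d = ζ then F.ε else 0) := by
    intro d
    have h1 := hrel' d
    rw [if_neg hnotX] at h1
    simpa using h1
  have hfib : (Finset.univ.filter (fun d => F.ν d = ζ)).card = F.e := by
    rw [← hd₁]
    exact card_fib F d₁
  set f := (Cn P).relIndex (Nn P) with hfdef
  have hefe : F.e * (f / F.e) = f := Nat.mul_div_cancel' hef
  have hdν : (p : ℤ) ∣ (charDegree (ζ : G → ℂ) : ℤ) - F.ε * ((f * charDegree (θ : Cn P → ℂ) : ℕ) : ℤ) := by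
    have h0 := F.hdν d₁
    rw [hd₁] at h0
    have h1 : F.ε * F.e * ((f / F.e * charDegree (θ : Cn P → ℂ) : ℕ) : ℤ) =
        F.ε * ((f * charDegree (θ : Cn P → ℂ) : ℕ) : ℤ) := by
      rw [mul_assoc, ← Nat.cast_mul, ← mul_assoc, hefe]
    rwa [h1] at h0
  have hfpos : 0 < f := by
    obtain ⟨k, hk⟩ := hfd
    rcases Nat.eq_zero_or_pos f with h | h
    · rw [h, zero_mul] at hk
      have := hp.out.two_le
      omega
    · exact h
  have hfle : f ≤ p - 1 := Nat.le_of_dvd (by have := hp.out.two_le; omega) hfd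
  have hpZ : (p : ℤ) = (charDegree (ζ : G → ℂ) : ℤ) + 2 := by exact_mod_cast hdeg.symm
  rcases F.hε with hε | hε
  · -- the plus case: `P` is central
    exfalso
    have ha0 : a = 0 := by
      by_contra hne
      apply hall
      intro d
      have h1 := hrel2 d
      rw [hε] at h1
      split_ifs at h1 <;> omega
    have hb1 : b d₁ = 1 := by
      have h1 := hrel2 d₁
      rw [if_pos hd₁, hε, ha0] at h1
      have : (b d₁ : ℤ) = 1 := by simpa using h1
      exact_mod_cast this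
    have hNf : Nat.card (Nn P) = f * Nat.card (Cn P) := by
      rw [hNc, Nat.div_mul_cancel hef]
    have horb := orbit_bound hP hp2 hζ hcn θ hθP d₁ (by show b d₁ ≠ 0; omega) hNf
    rw [hcn'] at horb
    -- the congruence
    have hcong : (p : ℤ) ∣ ((p - 2 : ℕ) : ℤ) - f * charDegree (θ : Cn P → ℂ) := by
      have h0 := hdν
      rw [hε, hcn', one_mul] at h0
      push_cast at h0 ⊢
      exact h0
    have hfdeq : f * charDegree (θ : Cn P → ℂ) = p - 2 := by
      have h0 : 0 < f * charDegree (θ : Cn P → ℂ) := Nat.mul_pos hfpos hdθ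
      have h3 : ((p - 2 : ℕ) : ℤ) - (f : ℤ) * charDegree (θ : Cn P → ℂ) = 0 := by
        apply Int.eq_zero_of_abs_lt_dvd hcong
        rw [abs_lt]
        have h4 : ((p - 2 : ℕ) : ℤ) = (p : ℤ) - 2 := by
          rw [Nat.cast_sub (by omega)]
          simp
        have h5 : ((f : ℤ) * (charDegree (θ : Cn P → ℂ) : ℤ)) ≤ ((p - 2 : ℕ) : ℤ) := by exact_mod_cast horb
        have h6 : (0 : ℤ) < ((f : ℤ) * (charDegree (θ : Cn P → ℂ) : ℤ)) := by exact_mod_cast h0
        constructor <;> linarith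
      have h4 : ((p - 2 : ℕ) : ℤ) = ((f * charDegree (θ : Cn P → ℂ) : ℕ) : ℤ) := by
        push_cast
        push_cast at h3
        linarith
      exact_mod_cast h4.symm
    have hf1 : f = 1 := by
      have h1 : f ∣ p - 2 := ⟨_, hfdeq.symm⟩
      have h2 : f ∣ (p - 1) - (p - 2) := Nat.dvd_sub hfd h1
      have h3 : (p - 1) - (p - 2) = 1 := by omega
      rw [h3] at h2
      exact Nat.dvd_one.mp h2
    have hdp : charDegree (θ : Cn P → ℂ) = p - 2 := by
      rw [hf1, one_mul] at hfdeq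
      exact hfdeq
    -- `ζ` on `C` is a twist
    have htot : (a + ∑ d, b d) * charDegree (θ : Cn P → ℂ) = p - 2 := by
      apply le_antisymm hsum'
      rw [hdp]
      apply Nat.le_mul_of_pos_left
      have h1 : b d₁ ≤ ∑ d, b d := Finset.single_le_sum (fun _ _ => Nat.zero_le _) (Finset.mem_univ d₁)
      omega
    have hsumb : a + ∑ d, b d = 1 := by
      have h0 : 0 < p - 2 := by omega
      rw [hdp] at htot
      have h1 : (a + ∑ d, b d) * (p - 2) = 1 * (p - 2) := by rw [htot, one_mul]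
      exact Nat.eq_of_mul_eq_mul_right h0 h1
    -- the only nonzero multiplicity
    have hbz : ∀ d, d ≠ d₁ → b d = 0 := by
      intro d hd
      have h1 : b d₁ + b d ≤ ∑ d, b d := by
        have h2 : ∑ x ∈ ({d₁, d} : Finset (DD P p)), b x ≤ ∑ x, b x :=
          Finset.sum_le_sum_of_subset (Finset.subset_univ _)
        rwa [Finset.sum_pair (Ne.symm hd)] at h2
      omega
    have hval := val_of_eq hP hp2 hζ (n := p - 2) (by rw [hcn, hcn']) θ hθP (by
      show (a + ∑ d, b d) * charDegree (θ : Cn P → ℂ) = p - 2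
      exact htot)
    have huval : ∀ u : P, (ζ : G → ℂ) u = ((d₁.1 ⟨u, le_centralizer hP u.2⟩ : ℂˣ) : ℂ) * ((p - 2 : ℕ) : ℂ) := by
      intro u
      have h1 := hval ⟨u, le_centralizer hP u.2⟩
      rw [show nn (θ : Cn P → ℂ) (rs P (ζ : G → ℂ)) = 0 from ha0] at h1
      rw [Finset.sum_eq_single d₁] at h1
      · rw [show nn (tw d₁.1 (θ : Cn P → ℂ)) (rs P (ζ : G → ℂ)) = 1 from hb1] at h1
        have h2 : (θ : Cn P → ℂ) ⟨u, le_centralizer hP u.2⟩ = ((p - 2 : ℕ) : ℂ) := by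
          rw [hθP _ u.2, ← hdp]
          exact (charDegree_natCast (isCharacter_of_isIrrCharacter θ.2)).symm
        simp only [tw] at h1
        rw [h2] at h1
        simpa using h1
      · intro d _ hd
        rw [show nn (tw d.1 (θ : Cn P → ℂ)) (rs P (ζ : G → ℂ)) = 0 from hbz d hd]
        simp
      · simp
    -- so `u` is central
    have hcent : ∀ u : P, ∀ g : G, g * u = u * g := by
      intro u g
      refine central_of_norm hζ hfaith ?_ g
      rw [huval u, norm_mul, hcn']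
      have h1 : ‖((d₁.1 ⟨u, le_centralizer hP u.2⟩ : ℂˣ) : ℂ)‖ = 1 := by
        have h2 := d₁.2.1 ⟨u, le_centralizer hP u.2⟩
        have h3 : ((d₁.1 ⟨u, le_centralizer hP u.2⟩ : ℂˣ) : ℂ) ^ p = 1 := by
          rw [← Units.val_pow_eq_pow_val, h2]
          rfl
        exact Complex.norm_eq_one_of_pow_eq_one h3 hp.out.ne_zero
      rw [h1, one_mul]
      simp
    apply hnn
    constructor
    intro x hx g
    have h1 := hcent ⟨x, hx⟩ g
    have h2 : g * x * g⁻¹ = x := by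
      show g * x * g⁻¹ = x
      have h3 : g * x = x * g := h1
      rw [h3]
      group
    rw [h2]
    exact hx
  · -- the minus case
    have ha1 : a = 1 := by
      have h1 := hrel2 d₁
      rw [if_pos hd₁, hε] at h1
      have h2 : (0 : ℤ) ≤ b d₁ := Int.natCast_nonneg _
      have hge : 1 ≤ a := by omega
      by_contra hne
      apply hall
      intro d
      have h3 := hrel2 d
      rw [hε] at h3
      split_ifs at h3 <;> omega
    have hbv : ∀ d, b d = if F.ν d = ζ then 0 else 1 := by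
      intro d
      have h3 := hrel2 d
      rw [hε, ha1] at h3
      split_ifs at h3 ⊢ with h4
      · have : (b d : ℤ) = 0 := by simpa using h3
        exact_mod_cast this
      · have : (b d : ℤ) = 1 := by simpa using h3
        exact_mod_cast this
    have hsumb : ∑ d, b d = p - 1 - F.e := by
      simp only [hbv]
      rw [Finset.sum_ite, Finset.sum_const_zero, zero_add, Finset.sum_const, smul_eq_mul, mul_one]
      have h1 := Finset.card_filter_add_card_filter_not (s := (Finset.univ : Finset (DD P p))) (fun d => F.ν d = ζ)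
      rw [hfib, Finset.card_univ, hcard] at h1
      omega
    have hY2 : 2 * F.e ≤ p - 1 := by
      have hne : F.ν d₀ ≠ F.ν d₁ := by
        rw [hd₁]
        intro h
        apply hb0
        rw [hbv, if_pos h]
      have h3 : ({F.ν d₀, F.ν d₁} : Finset (IrrCharacter G)) ⊆ F.Y := by
        intro a ha
        simp only [Finset.mem_insert, Finset.mem_singleton] at ha
        rcases ha with rfl | rfl
        · exact (F.hY _).mpr ⟨_, rfl⟩
        · exact (F.hY _).mpr ⟨_, rfl⟩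
      have h4 := Finset.card_le_card h3
      rw [Finset.card_pair hne] at h4
      rw [← F.hYe]
      exact Nat.mul_le_mul_right _ h4
    have hpe : a + ∑ d, b d = p - F.e := by
      rw [hsumb, ha1]
      omega
    rw [hpe] at hsum'
    have hd1 : charDegree (θ : Cn P → ℂ) = 1 := by
      by_contra hne
      have h1 : 2 ≤ charDegree (θ : Cn P → ℂ) := by omega
      have h2 : (p - F.e) * 2 ≤ (p - F.e) * charDegree (θ : Cn P → ℂ) := Nat.mul_le_mul_left _ h1
      omega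
    rw [hd1, mul_one] at hsum'
    have he2 : 2 ≤ F.e := by omega
    -- the congruence
    have hcong : (p : ℤ) ∣ (f : ℤ) - 2 := by
      have h0 := hdν
      rw [hε, hd1, mul_one] at h0
      have h1 : (charDegree (ζ : G → ℂ) : ℤ) - -1 * (f : ℤ) = (p : ℤ) + ((f : ℤ) - 2) := by
        rw [hpZ]
        ring
      rw [h1] at h0
      exact (dvd_add_right (dvd_refl (p : ℤ))).mp h0
    have hf2 : f = 2 := by
      have h3 : (f : ℤ) - 2 = 0 := by
        apply Int.eq_zero_of_abs_lt_dvd hcong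
        rw [abs_lt]
        have hfle' : (f : ℤ) ≤ (p : ℤ) - 1 := by
          have : f + 1 ≤ p := by omega
          have h1 : ((f + 1 : ℕ) : ℤ) ≤ p := by exact_mod_cast this
          push_cast at h1
          linarith
        have hf0 : (1 : ℤ) ≤ f := by exact_mod_cast hfpos
        have hp7' : (7 : ℤ) ≤ p := by exact_mod_cast hp7
        constructor <;> linarith
      have : (f : ℤ) = 2 := by linarith
      exact_mod_cast this
    have he : F.e = 2 := by
      have h1 : F.e ∣ 2 := hf2 ▸ hef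
      have h2 := Nat.le_of_dvd (by norm_num) h1
      omega
    have hN2 : Nat.card (Nn P) = 2 * Nat.card (Cn P) := by
      rw [hNc, hf2, he]
    have hval := val_of_eq hP hp2 hζ (n := p - 2) (by rw [hcn, hcn']) θ hθP (by
      show (a + ∑ d, b d) * charDegree (θ : Cn P → ℂ) = p - 2
      rw [hpe, hd1, mul_one, he])
    refine ⟨⟨θ, hθP, F, d₁, hd1, hN2, he, hε, hd₁, ha1, ?_, ?_, hval⟩⟩
    · intro d hd
      show b d = 0
      rw [hbv, if_pos hd]
    · intro d hd
      show b d = 1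
      rw [hbv, if_neg hd]

end Family

end Cfsg.Agent.Lib.Blk89.DegP2A
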