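import Cfsg.Agent.Lib.Char.Ortho
import Cfsg.Agent.Lib.Char.Eigen
import Cfsg.Agent.Lib.Char.Basic
import Cfsg.Agent.Lib.Char.Complete

/-!
# Values of characters at an element all of whose `P`-translates are conjugate to it

If `τ` normalizes `P` and `τ v` is conjugate to `τ` for all `v ∈ P`, then `χ τ` is the trace of `τ` on the fixed points
of `P`, and so `‖χ τ‖` is at most the number of those.
-/

set_option autoImplicit false
set_option linter.unusedSectionVars false
set_option linter.style.haveILetI false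

namespace Cfsg.Agent.Lib.Blk89.DegP2B

open Cfsg Module
open Cfsg.Agent.Lib.Char.Basic Cfsg.Agent.Lib.Char.Ortho Cfsg.Agent.Lib.Char.Complete

universe u

variable {G : Type u} [Group G] [Fintype G] {P : Subgroup G} [Fintype P]

/-- **The bound.** -/
theorem bound_fix {τ : G} (hN : ∀ u ∈ P, τ⁻¹ * u * τ ∈ P) (hN' : ∀ u ∈ P, τ * u * τ⁻¹ ∈ P)
    (hconj : ∀ v ∈ P, IsConj τ (τ * v)) {χ : G → ℂ} (hχ : IsCharacter G χ) {a : ℕ}
    (ha : ∑ u : P, χ u = (Nat.card P : ℂ) * a) :
    ‖χ τ‖ ≤ a ∧ (a = 1 → ‖χ τ‖ = 1) := by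
  classical
  obtain ⟨n, ρ, rfl⟩ := hχ
  have hP0 : (Nat.card P : ℂ) ≠ 0 := Nat.cast_ne_zero.mpr Nat.card_pos.ne'
  let S : Module.End ℂ (Fin n → ℂ) := ∑ u : P, ρ (u : G)
  have hvS : ∀ v : P, ρ (v : G) * S = S := by
    intro v
    simp only [S, Finset.mul_sum]
    refine Fintype.sum_equiv (Equiv.mulLeft v) _ _ fun u => ?_
    simp [map_mul]
  have hSS : S * S = (Nat.card P : ℂ) • S := by
    conv_lhs => enter [1]; simp only [S]
    rw [Finset.sum_mul]
    simp only [hvS]
    rw [Finset.sum_const, Finset.card_univ, ← Nat.card_eq_fintype_card, Nat.cast_smul_eq_nsmul]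
  -- conjugation by `τ`
  let φ : P ≃ P :=
    { toFun := fun u => ⟨τ⁻¹ * u * τ, hN u u.2⟩
      invFun := fun u => ⟨τ * u * τ⁻¹, hN' u u.2⟩
      left_inv := fun u => Subtype.ext (by simp [mul_assoc])
      right_inv := fun u => Subtype.ext (by simp [mul_assoc]) }
  have hcomm : S * ρ τ = ρ τ * S := by
    simp only [S, Finset.sum_mul, Finset.mul_sum]
    refine Fintype.sum_equiv φ _ _ fun u => ?_
    rw [← map_mul, ← map_mul]
    congr 1
    simp [φ, mul_assoc]
  let e : Module.End ℂ (Fin n → ℂ) := (Nat.card P : ℂ)⁻¹ • S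
  have he : e * e = e := by
    simp only [e, smul_mul_smul_comm, hSS, smul_smul]
    congr 1
    field_simp
  have hcomm' : e * ρ τ = ρ τ * e := by
    simp only [e, smul_mul_assoc, mul_smul_comm, hcomm]
  have hcommk : ∀ k : ℕ, e * ρ (τ ^ k) = ρ (τ ^ k) * e := by
    intro k
    rw [map_pow]
    exact (Commute.pow_right hcomm' k)
  let W : Submodule ℂ (Fin n → ℂ) := LinearMap.range e
  have hW : ∀ w ∈ W, e w = w := by
    rintro w ⟨x, rfl⟩
    exact LinearMap.congr_fun he x
  let T : Subgroup G := Subgroup.zpowers τ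
  have hT : ∀ t : T, ∃ k : ℕ, (t : G) = τ ^ k := by
    rintro ⟨t, ht⟩
    obtain ⟨k, hk⟩ := mem_powers_iff_mem_zpowers.mpr ht
    exact ⟨k, hk.symm⟩
  have hWs : ∀ t : T, ∀ w ∈ W, ρ (t : G) w ∈ W := by
    intro t w hw
    obtain ⟨k, hk⟩ := hT t
    refine ⟨ρ (t : G) w, ?_⟩
    have h1 := LinearMap.congr_fun (hcommk k) w
    simp only [Module.End.mul_apply] at h1
    rw [hk, h1, hW w hw]
  let ρ' : Representation ℂ T W :=
    { toFun := fun t => (ρ (t : G)).restrict (hWs t)
      map_one' := by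
        ext w
        simp
      map_mul' := by
        intro a b
        ext w
        simp }
  let ι : W →ₗ[ℂ] (Fin n → ℂ) := W.subtype
  let π : (Fin n → ℂ) →ₗ[ℂ] W := e.rangeRestrict
  have hιπ : ι ∘ₗ π = e := by
    ext x
    rfl
  have hπι : π ∘ₗ ι = LinearMap.id := by
    ext w
    exact congrFun (hW w w.2) _
  -- the dimension of `W`
  have hdim : finrank ℂ W = a := by
    have h1 : LinearMap.trace ℂ W (π ∘ₗ ι) = LinearMap.trace ℂ (Fin n → ℂ) (ι ∘ₗ π) :=
      (LinearMap.trace_comp_comm' π ι).symm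
    rw [hπι, hιπ] at h1
    have h2 : LinearMap.trace ℂ (Fin n → ℂ) e = (a : ℂ) := by
      simp only [e, S, map_smul, map_sum, smul_eq_mul]
      have h3 : ∑ u : P, LinearMap.trace ℂ (Fin n → ℂ) (ρ (u : G)) = ∑ u : P, ρ.character u := rfl
      rw [h3, ha]
      field_simp
    rw [h2] at h1
    have h4 : LinearMap.trace ℂ W LinearMap.id = (finrank ℂ W : ℂ) := by
      have := LinearMap.trace_one ℂ W
      simp
    rw [h4] at h1
    exact_mod_cast h1
  -- the value
  let τ' : T := ⟨τ, Subgroup.mem_zpowers τ⟩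
  have hval : ρ'.character τ' = ρ.character τ := by
    have h1 : ρ' τ' = π ∘ₗ (ρ τ ∘ₗ ι) := by
      apply LinearMap.ext
      intro w
      apply Subtype.ext
      have h2 : (ρ τ) (w : Fin n → ℂ) ∈ W := hWs τ' w w.2
      have h3 := hW _ h2
      show (ρ τ) (w : Fin n → ℂ) = e ((ρ τ) (w : Fin n → ℂ))
      rw [h3]
    show LinearMap.trace ℂ W (ρ' τ') = _
    rw [h1, LinearMap.trace_comp_comm', LinearMap.comp_assoc, hιπ]
    have h2 : ρ τ ∘ₗ e = (Nat.card P : ℂ)⁻¹ • ∑ u : P, ρ (τ * u) := by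
      simp only [e, S, map_mul]
      ext x
      simp
    rw [h2]
    simp only [map_smul, map_sum, smul_eq_mul]
    have h3 : ∀ u : P, LinearMap.trace ℂ (Fin n → ℂ) (ρ (τ * u)) = ρ.character τ := by
      intro u
      show ρ.character (τ * u) = _
      exact (isClassFunction_iff_isConj.mp (isClassFunction_of_isCharacter ⟨n, ρ, rfl⟩) _ _ (hconj u u.2)).symm
    simp only [h3]
    rw [Finset.sum_const, Finset.card_univ, ← Nat.card_eq_fintype_card, nsmul_eq_mul]
    field_simp
  rw [← hval]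
  constructor
  · have := norm_character_le ρ' τ'
    rwa [hdim] at this
  · intro ha1
    have hd1 : finrank ℂ W = 1 := by rw [hdim, ha1]
    obtain ⟨c, hc, -⟩ := LinearMap.existsUnique_eq_smul_id_of_finrank_eq_one hd1 (ρ' τ')
    have h2 := (Cfsg.Agent.Lib.Char.Eigen.norm_character_eq_iff_scalar ρ' τ').mpr ⟨c, hc⟩
    rw [hd1] at h2
    simpa using h2

end Cfsg.Agent.Lib.Blk89.DegP2B
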