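import Mathlib

/-!
# Inequalities for the proof of the theorem on characters of degree `p - 2`
-/

set_option autoImplicit false

namespace Cfsg.Agent.Lib.Blk89.DegP2E

/-- The basic identity. -/
theorem Q_identity (A B : ℂ) {y n : ℝ} (hy : 0 < y) (hn : 0 < n) :
    ‖A‖ ^ 2 / y + ‖B‖ ^ 2 / n - ‖A + B‖ ^ 2 / (y + n) =
      ‖(n : ℂ) * A - (y : ℂ) * B‖ ^ 2 / (y * n * (y + n)) := by
  have hyn : 0 < y + n := add_pos hy hn
  simp only [Complex.sq_norm, Complex.normSq_apply]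
  simp only [Complex.add_re, Complex.add_im, Complex.sub_re, Complex.sub_im, Complex.mul_re, Complex.mul_im,
    Complex.ofReal_re, Complex.ofReal_im, zero_mul, sub_zero, add_zero]
  field_simp
  ring

/-- The upper bound. -/
theorem upper {p b : ℝ} (hp : 7 ≤ p) (hb : 1 ≤ b) {A B : ℂ} (hA : ‖A‖ ≤ b + 1) (hB : ‖B‖ = 1) :
    ‖((p - 2 : ℝ) : ℂ) * A - ((b * p + 1 : ℝ) : ℂ) * B‖ ^ 2 /
        ((b * p + 1) * (p - 2) * ((b * p + 1) + (p - 2))) ≤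
      (9 / 2) * (p - 1) ^ 2 / ((p - 2) * p ^ 2) := by
  have hn : 0 < p - 2 := by linarith
  have hy : 0 < b * p + 1 := by nlinarith
  have hp0 : 0 < p := by linarith
  have hyn : 0 < (b * p + 1) + (p - 2) := by linarith
  have h1 : ‖((p - 2 : ℝ) : ℂ) * A - ((b * p + 1 : ℝ) : ℂ) * B‖ ≤ (2 * b + 1) * (p - 1) := by
    calc ‖((p - 2 : ℝ) : ℂ) * A - ((b * p + 1 : ℝ) : ℂ) * B‖
        ≤ ‖((p - 2 : ℝ) : ℂ) * A‖ + ‖((b * p + 1 : ℝ) : ℂ) * B‖ := norm_sub_le _ _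
      _ = (p - 2) * ‖A‖ + (b * p + 1) := by
          rw [norm_mul, norm_mul, hB, mul_one, Complex.norm_real, Complex.norm_real, Real.norm_of_nonneg hn.le,
            Real.norm_of_nonneg hy.le]
      _ ≤ (p - 2) * (b + 1) + (b * p + 1) := by
          have := mul_le_mul_of_nonneg_left hA hn.le
          linarith
      _ = (2 * b + 1) * (p - 1) := by ring
  have h2 : ‖((p - 2 : ℝ) : ℂ) * A - ((b * p + 1 : ℝ) : ℂ) * B‖ ^ 2 ≤ ((2 * b + 1) * (p - 1)) ^ 2 :=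
    pow_le_pow_left₀ (norm_nonneg _) h1 2
  rw [div_le_div_iff₀ (by positivity) (by positivity)]
  have hb0 : 0 < b := by linarith
  have h3 : (2 * b + 1) ^ 2 * p ^ 2 ≤ (9 / 2) * ((b * p + 1) * ((b * p + 1) + (p - 2))) := by
    have h4 : (b * p + 1) * ((b * p + 1) + (p - 2)) = b * (b + 1) * p ^ 2 + (p - 1) := by ring
    rw [h4]
    have h5 : (2 * b + 1) ^ 2 ≤ (9 / 2) * (b * (b + 1)) := by nlinarith
    have h6 := mul_le_mul_of_nonneg_right h5 (sq_nonneg p)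
    nlinarith
  have hp1 : 0 < p - 1 := by linarith
  calc ‖((p - 2 : ℝ) : ℂ) * A - ((b * p + 1 : ℝ) : ℂ) * B‖ ^ 2 * ((p - 2) * p ^ 2)
      ≤ ((2 * b + 1) * (p - 1)) ^ 2 * ((p - 2) * p ^ 2) := by
        apply mul_le_mul_of_nonneg_right h2
        positivity
    _ = ((p - 1) ^ 2 * (p - 2)) * ((2 * b + 1) ^ 2 * p ^ 2) := by ring
    _ ≤ ((p - 1) ^ 2 * (p - 2)) * ((9 / 2) * ((b * p + 1) * ((b * p + 1) + (p - 2)))) := by
        apply mul_le_mul_of_nonneg_left h3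
        positivity
    _ = _ := by ring

/-- The lower bound in the case `ε = -1`. -/
theorem lower_B {p h : ℝ} (hp : 7 ≤ p) (hh : 0 ≤ h) {f : ℂ} (hf : ‖f‖ ≤ h) :
    (p - 1) ^ 2 / p ^ 2 ≤ ‖(((h + 1) * p - 1 : ℝ) : ℂ) - f‖ ^ 2 / (((h + 1) * p - 1) * (((h + 1) * p - 1) - 1)) := by
  have hp0 : 0 < p := by linarith
  have hn : 0 < ((h + 1) * p - 1) - 1 := by nlinarith
  have hn1 : 0 < (h + 1) * p - 1 := by linarith
  have h1 : (h + 1) * (p - 1) ≤ ‖(((h + 1) * p - 1 : ℝ) : ℂ) - f‖ := by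
    have h2 : ‖(((h + 1) * p - 1 : ℝ) : ℂ)‖ - ‖f‖ ≤ ‖(((h + 1) * p - 1 : ℝ) : ℂ) - f‖ := norm_sub_norm_le _ _
    rw [Complex.norm_real, Real.norm_of_nonneg hn1.le] at h2
    nlinarith
  have h3 : ((h + 1) * (p - 1)) ^ 2 ≤ ‖(((h + 1) * p - 1 : ℝ) : ℂ) - f‖ ^ 2 :=
    pow_le_pow_left₀ (by nlinarith) h1 2
  rw [div_le_div_iff₀ (by positivity) (by positivity)]
  have h4 : ((h + 1) * p - 1) * (((h + 1) * p - 1) - 1) ≤ ((h + 1) * p) ^ 2 := by nlinarith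
  have hp1 : 0 < p - 1 := by linarith
  calc (p - 1) ^ 2 * (((h + 1) * p - 1) * (((h + 1) * p - 1) - 1))
      ≤ (p - 1) ^ 2 * ((h + 1) * p) ^ 2 := by
        apply mul_le_mul_of_nonneg_left h4
        positivity
    _ = ((h + 1) * (p - 1)) ^ 2 * p ^ 2 := by ring
    _ ≤ _ := by
        apply mul_le_mul_of_nonneg_right h3
        positivity

/-- The lower bound in the case `ε = 1`. -/
theorem lower_A {p h : ℝ} (hp : 7 ≤ p) (hh : 1 ≤ h) {f : ℂ} (hf : ‖f‖ ≤ h + 1) :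
    (p - 1) ^ 2 / ((p + 1) * (p + 2)) ≤
      ‖((h * p + 1 : ℝ) : ℂ) - f‖ ^ 2 / ((h * p + 1) * (1 + (h * p + 1))) := by
  have hp0 : 0 < p := by linarith
  have hn1 : 0 < h * p + 1 := by nlinarith
  have hn2 : 0 < 1 + (h * p + 1) := by linarith
  have h1 : h * (p - 1) ≤ ‖((h * p + 1 : ℝ) : ℂ) - f‖ := by
    have h2 : ‖((h * p + 1 : ℝ) : ℂ)‖ - ‖f‖ ≤ ‖((h * p + 1 : ℝ) : ℂ) - f‖ := norm_sub_norm_le _ _
    rw [Complex.norm_real, Real.norm_of_nonneg hn1.le] at h2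
    nlinarith
  have h3 : (h * (p - 1)) ^ 2 ≤ ‖((h * p + 1 : ℝ) : ℂ) - f‖ ^ 2 :=
    pow_le_pow_left₀ (by nlinarith) h1 2
  rw [div_le_div_iff₀ (by positivity) (by positivity)]
  have h4 : (h * p + 1) * (1 + (h * p + 1)) ≤ h ^ 2 * ((p + 1) * (p + 2)) := by nlinarith
  have hp1 : 0 < p - 1 := by linarith
  calc (p - 1) ^ 2 * ((h * p + 1) * (1 + (h * p + 1)))
      ≤ (p - 1) ^ 2 * (h ^ 2 * ((p + 1) * (p + 2))) := by
        apply mul_le_mul_of_nonneg_left h4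
        positivity
    _ = (h * (p - 1)) ^ 2 * ((p + 1) * (p + 2)) := by ring
    _ ≤ _ := by
        apply mul_le_mul_of_nonneg_right h3
        positivity

theorem compare_B {p : ℝ} (hp : 7 ≤ p) : (9 / 2) * (p - 1) ^ 2 / ((p - 2) * p ^ 2) < (p - 1) ^ 2 / p ^ 2 := by
  have hp0 : 0 < p := by linarith
  have hn : 0 < p - 2 := by linarith
  have hp1 : 0 < p - 1 := by linarith
  rw [div_lt_div_iff₀ (by positivity) (by positivity)]
  have h1 : 0 < (p - 1) ^ 2 * p ^ 2 := by positivity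
  nlinarith

theorem compare_A {p : ℝ} (hp : 11 ≤ p) :
    (9 / 2) * (p - 1) ^ 2 / ((p - 2) * p ^ 2) < (p - 1) ^ 2 / ((p + 1) * (p + 2)) := by
  have hp0 : 0 < p := by linarith
  have hn : 0 < p - 2 := by linarith
  have hp1 : 0 < p - 1 := by linarith
  rw [div_lt_div_iff₀ (by positivity) (by positivity)]
  have h2 : (9 / 2) * ((p + 1) * (p + 2)) < (p - 2) * p ^ 2 := by nlinarith [mul_pos hp0 hp0]
  have h1 : 0 < (p - 1) ^ 2 := by positivity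
  calc (9 / 2) * (p - 1) ^ 2 * ((p + 1) * (p + 2)) = (p - 1) ^ 2 * ((9 / 2) * ((p + 1) * (p + 2))) := by ring
    _ < (p - 1) ^ 2 * ((p - 2) * p ^ 2) := mul_lt_mul_of_pos_left h2 h1

theorem compare_two {p : ℝ} (hp : 7 ≤ p) : (9 / 2) * (p - 1) ^ 2 / ((p - 2) * p ^ 2) < 2 := by
  have hp0 : 0 < p := by linarith
  have hn : 0 < p - 2 := by linarith
  rw [div_lt_iff₀ (by positivity)]
  nlinarith [mul_pos hp0 hp0, mul_pos hn hp0, mul_pos (mul_pos hn hp0) hp0]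

theorem compare_seven : (9 / 2) * ((7 : ℝ) - 1) ^ 2 / (((7 : ℝ) - 2) * 7 ^ 2) < 8 / 9 := by norm_num

/-- The fixed-point estimate used for `p = 7`. -/
theorem re_le_of_norm {f : ℂ} (h : ‖1 + 2 * f‖ ≤ 1) : f.re ≤ 0 := by
  have h1 : (1 + 2 * f).re ≤ ‖1 + 2 * f‖ := Complex.re_le_norm _
  simp at h1
  linarith

theorem lower_seven {f : ℂ} (h : f.re ≤ 0) : (8 : ℝ) / 9 ≤ ‖((8 : ℝ) : ℂ) - f‖ ^ 2 / ((8 : ℝ) * (1 + 8)) := by
  have h1 : 8 ≤ ‖((8 : ℝ) : ℂ) - f‖ := by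
    have h2 : (((8 : ℝ) : ℂ) - f).re ≤ ‖((8 : ℝ) : ℂ) - f‖ := Complex.re_le_norm _
    rw [Complex.sub_re, Complex.ofReal_re] at h2
    linarith
  have h3 : (8 : ℝ) ^ 2 ≤ ‖((8 : ℝ) : ℂ) - f‖ ^ 2 := pow_le_pow_left₀ (by norm_num) h1 2
  rw [div_le_div_iff₀ (by norm_num) (by norm_num)]
  nlinarith

end Cfsg.Agent.Lib.Blk89.DegP2E
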