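import Mathlib
import Cfsg.Agent.Lib.Contrib.Major

/-!
# Major subsections: the lower bound

For a central `p`-element `x` of a subgroup `K = C_G(x)` and a block `b` of `K` inducing `B` of the
same defect: `qq` is the number `p ^ d (PP ϑ_χ, PP ϑ_χ)`; it is nonzero, divisible by `p ^ h(χ)`
locally, and its Galois conjugates are obtained by replacing `x` by a power.
-/

set_option linter.unusedSectionVars false
set_option autoImplicit false
set_option linter.style.haveILetI false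

namespace Cfsg.Agent.Lib.Blk89.HCLow

open Cfsg MonoidAlgebra
open Cfsg.Agent.Lib.Blocks.Local Cfsg.Agent.Lib.Blocks.Central
open Cfsg.Agent.Lib.BlockH.Regular Cfsg.Agent.Lib.BlockP.Defect
open Cfsg.Agent.Lib.Char.Ortho Cfsg.Agent.Lib.Char.Galois
open Cfsg.Agent.Lib.Contrib.Proj Cfsg.Agent.Lib.Contrib.Cyc Cfsg.Agent.Lib.Contrib.Family
open Cfsg.Agent.Lib.Contrib.Section Cfsg.Agent.Lib.Contrib.Sec Cfsg.Agent.Lib.Contrib.Major
open scoped ComplexConjugate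

universe u

section Basic

variable {X : Type u} [Group X] [Fintype X]

theorem classInner_self_eq (f : X → ℂ) :
    classInner f f = (((Nat.card X : ℝ)⁻¹ * ∑ g, ‖f g‖ ^ 2 : ℝ) : ℂ) := by
  rw [classInner_def]
  push_cast
  congr 1
  refine Fintype.sum_congr _ _ fun g => ?_
  rw [Complex.mul_conj, Complex.normSq_eq_norm_sq]
  push_cast
  rfl

theorem classInner_self_ne_zero {f : X → ℂ} (hf : f ≠ 0) : classInner f f ≠ 0 := by
  rw [classInner_self_eq]
  intro h0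
  have h1 : (Nat.card X : ℝ)⁻¹ * ∑ g, ‖f g‖ ^ 2 = 0 := by exact_mod_cast h0
  have hc : (Nat.card X : ℝ)⁻¹ ≠ 0 := inv_ne_zero (Nat.cast_ne_zero.mpr Nat.card_pos.ne')
  have h2 := (mul_eq_zero.mp h1).resolve_left hc
  rw [Finset.sum_eq_zero_iff_of_nonneg (fun _ _ => by positivity)] at h2
  apply hf
  funext g
  simpa using h2 g (Finset.mem_univ g)

theorem eq_zero_of_classInner_ne {f g : X → ℂ} (h : classInner f g ≠ 0) : g ≠ 0 := by
  rintro rfl
  apply h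
  simp [classInner_def]

end Basic

section Form

variable {K : Type u} [Group K] [Fintype K] [Fintype (IrrCharacter K)] {p : ℕ} {M : Ideal AlgInt}
  [Fact p.Prime]

/-- The integral form, independent of the function. -/
theorem exists_form (hM : IsPModular p M) {b : Set (IrrCharacter K)} (hb : IsPBlock M b)
    (n : IrrCharacter K → ℕ) :
    ∃ N : IrrCharacter K → IrrCharacter K → ℤ, ∀ (h : K → ℂ) (ε : IrrCharacter K → ℂ),
      (∀ ξ : IrrCharacter K, classInner h (ξ : K → ℂ) = ε ξ * n ξ) →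
      ((p ^ blockDefect p b : ℕ) : ℂ) * classInner (PP p b h) (PP p b h) =
        ∑ a, ∑ c, (N a c : ℂ) * (ε a * conj (ε c)) := by
  classical
  have h0 : ∀ a c : IrrCharacter K, ∃ g : ℤ, a ∈ b → ((p ^ blockDefect p b : ℕ) : ℂ) *
      classInner (pRegularPart p (a : K → ℂ)) (pRegularPart p (c : K → ℂ)) = g := by
    intro a c
    by_cases ha : a ∈ b
    · obtain ⟨g, hg⟩ := exists_int_pairing hM hb ha c
      exact ⟨g, fun _ => hg⟩
    · exact ⟨0, fun h => absurd h ha⟩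
  choose g hg using h0
  refine ⟨fun a c => if a ∈ b ∧ c ∈ b then (n a : ℤ) * n c * g a c else 0, ?_⟩
  intro h ε hn
  rw [classInner_PP_PP, Finset.mul_sum]
  refine Fintype.sum_congr _ _ fun a => ?_
  rw [Finset.mul_sum]
  refine Fintype.sum_congr _ _ fun c => ?_
  by_cases h1 : a ∈ b ∧ c ∈ b
  · simp only [if_pos h1]
    rw [cc_of_mem h h1.1, cc_of_mem h h1.2, hn a, hn c, map_mul, Complex.conj_natCast]
    have hcast : (((n a : ℤ) * (n c : ℤ) * g a c : ℤ) : ℂ) = (n a : ℂ) * (n c : ℂ) * (g a c : ℂ) := by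
      push_cast
      ring
    rw [hcast, ← hg a c h1.1]
    ring
  · simp only [if_neg h1]
    by_cases h2 : a ∈ b
    · have h3 : c ∉ b := fun h3 => h1 ⟨h2, h3⟩
      rw [cc_of_notMem h h3]
      simp
    · rw [cc_of_notMem h h2]
      simp

/-- The central value. -/
noncomputable def epz (ξ : IrrCharacter K) (z : K) : ℂ := (ξ : K → ℂ) z / (ξ : K → ℂ) 1

theorem epz_pow_mul (ξ : IrrCharacter K) {z : K} (hz : ∀ g, z * g = g * z) (m : ℕ) (c : K) :
    (ξ : K → ℂ) (z ^ m * c) = epz ξ z ^ m * (ξ : K → ℂ) c := by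
  induction m generalizing c with
  | zero => simp
  | succ m ih =>
    rw [pow_succ, mul_assoc, ih, irr_central_mul ξ hz, pow_succ, mul_assoc]
    rfl

theorem epz_pow (ξ : IrrCharacter K) {z : K} (hz : ∀ g, z * g = g * z) (m : ℕ) :
    epz ξ (z ^ m) = epz ξ z ^ m := by
  have hne := Cfsg.Agent.Lib.Char.Complete.irr_one_ne_zero ξ.2
  have h := epz_pow_mul ξ hz m 1
  rw [mul_one] at h
  rw [epz, h]
  field_simp

theorem epz_root (ξ : IrrCharacter K) {z : K} (hz : ∀ g, z * g = g * z) {r : ℕ} (hr : z ^ r = 1) :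
    epz ξ z ^ r = 1 := by
  have hne := Cfsg.Agent.Lib.Char.Complete.irr_one_ne_zero ξ.2
  rw [← epz_pow ξ hz, hr, epz]
  field_simp

end Form

section Main

variable {G : Type u} [Group G] [Fintype G] [Fintype (IrrCharacter G)] {p : ℕ} {M : Ideal AlgInt}
  [Fact p.Prime]

/-- The shifted function on a subgroup. -/
noncomputable def ht (K : Subgroup G) (x : G) (χ : IrrCharacter G) : K → ℂ :=
  fun c => (χ : G → ℂ) (x * (c : G))

variable {K : Subgroup G} [Fintype K] [Fintype (IrrCharacter K)]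

/-- The contribution number. -/
noncomputable def qq (p : ℕ) (b : Set (IrrCharacter K)) (x : G) (χ : IrrCharacter G) : ℂ :=
  ((p ^ blockDefect p b : ℕ) : ℂ) * classInner (PP p b (ht K x χ)) (PP p b (ht K x χ))

theorem exists_real_qq (b : Set (IrrCharacter K)) (x : G) (χ : IrrCharacter G) :
    ∃ ρ : ℝ, 0 ≤ ρ ∧ qq p b x χ = ρ := by
  refine ⟨((p ^ blockDefect p b : ℕ) : ℝ) *
    ((Nat.card K : ℝ)⁻¹ * ∑ g, ‖PP p b (ht K x χ) g‖ ^ 2), by positivity, ?_⟩
  rw [qq, classInner_self_eq]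
  push_cast
  rfl

theorem classInner_ht_eq {x' : K} (hz : ∀ g, x' * g = g * x') (χ : IrrCharacter G)
    (ξ : IrrCharacter K) {n : ℕ}
    (hn : classInner (fun h : K => (χ : G → ℂ) h) (ξ : K → ℂ) = n) :
    classInner (ht K (x' : G) χ) (ξ : K → ℂ) = epz ξ x' * n := by
  have h1 := classInner_central_shift (φ := fun h : K => (χ : G → ℂ) h) ξ hz
  rw [hn] at h1
  exact h1

/-- The uniform form of the contribution numbers. -/
theorem exists_form_qq (hM : IsPModular p M) {b : Set (IrrCharacter K)} (hb : IsPBlock M b)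
    (χ : IrrCharacter G) :
    ∃ N : IrrCharacter K → IrrCharacter K → ℤ, ∀ (x' : K), (∀ g, x' * g = g * x') →
      qq p b (x' : G) χ = ∑ a, ∑ c, (N a c : ℂ) * (epz a x' * conj (epz c x')) := by
  have hrc := Cfsg.Agent.Lib.Char.Basic.isCharacter_restrict K
    (Cfsg.Agent.Lib.Char.Basic.isCharacter_of_isIrrCharacter χ.2)
  have h0 : ∀ ξ : IrrCharacter K, ∃ n : ℕ,
      classInner (fun h : K => (χ : G → ℂ) h) (ξ : K → ℂ) = n := fun ξ =>
    exists_nat_classInner hrc (Cfsg.Agent.Lib.Char.Basic.isCharacter_of_isIrrCharacter ξ.2)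
  choose n hn using h0
  obtain ⟨N, hN⟩ := exists_form hM hb n
  exact ⟨N, fun x' hz => hN _ _ fun ξ => classInner_ht_eq hz χ ξ (hn ξ)⟩

theorem sig_root {r : ℕ} [NeZero r] {σ : Kn r →ₐ[ℚ] ℂ} {k : ℕ}
    (hk : ∀ w : Kn r, w ^ r = 1 → σ w = (w : ℂ) ^ k) {η : ℂ} (hη : η ^ r = 1) :
    sig σ η = η ^ k := by
  have hr : r ≠ 0 := NeZero.ne r
  have hK := mem_Kn_of_pow_eq_one hr hη
  rw [sig_of_mem σ hK, hk]
  apply Subtype.ext
  simpa using hη

/-- The Galois action on the contribution numbers. -/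
theorem sig_qq (hM : IsPModular p M) {b : Set (IrrCharacter K)} (hb : IsPBlock M b)
    {x' : K} (hz : ∀ g, x' * g = g * x') {r : ℕ} [NeZero r] (hx : x' ^ r = 1)
    {σ : Kn r →ₐ[ℚ] ℂ} {k : ℕ} (hk : ∀ w : Kn r, w ^ r = 1 → σ w = (w : ℂ) ^ k)
    (χ : IrrCharacter G) :
    sig σ (qq p b (x' : G) χ) = qq p b ((x' ^ k : K) : G) χ := by
  have hr : r ≠ 0 := NeZero.ne r
  obtain ⟨N, hN⟩ := exists_form_qq hM hb χ
  have hz' : ∀ g, x' ^ k * g = g * x' ^ k := fun g =>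
    ((Commute.pow_left (show Commute x' g from hz g) k)).eq
  rw [hN x' hz, hN (x' ^ k) hz']
  have hroot : ∀ a : IrrCharacter K, epz a x' ^ r = 1 := fun a => epz_root a hz hx
  have hroot' : ∀ a : IrrCharacter K, (conj (epz a x')) ^ r = 1 := fun a => by
    rw [← map_pow, hroot a, map_one]
  have hterm : ∀ a c : IrrCharacter K, (N a c : ℂ) * (epz a x' * conj (epz c x')) ∈ Kn r := fun a c =>
    mul_mem (intCast_mem _ _) (mul_mem (mem_Kn_of_pow_eq_one hr (hroot a))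
      (mem_Kn_of_pow_eq_one hr (hroot' c)))
  rw [sig_sum σ _ (fun a _ => sum_mem fun c _ => hterm a c)]
  refine Fintype.sum_congr _ _ fun a => ?_
  rw [sig_sum σ _ (fun c _ => hterm a c)]
  refine Fintype.sum_congr _ _ fun c => ?_
  rw [sig_mul σ (intCast_mem _ _) (mul_mem (mem_Kn_of_pow_eq_one hr (hroot a))
    (mem_Kn_of_pow_eq_one hr (hroot' c))), sig_intCast,
    sig_mul σ (mem_Kn_of_pow_eq_one hr (hroot a)) (mem_Kn_of_pow_eq_one hr (hroot' c)),
    sig_root hk (hroot a), sig_root hk (hroot' c), epz_pow a hz, epz_pow c hz, map_pow]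

/-- The contribution numbers lie in the cyclotomic integers. -/
theorem qq_mem_Zr (hM : IsPModular p M) {b : Set (IrrCharacter K)} (hb : IsPBlock M b)
    {x' : K} (hz : ∀ g, x' * g = g * x') {r : ℕ} (hr : r ≠ 0) (hx : x' ^ r = 1)
    (χ : IrrCharacter G) : qq p b (x' : G) χ ∈ Zr r := by
  have hrc := Cfsg.Agent.Lib.Char.Basic.isCharacter_restrict K
    (Cfsg.Agent.Lib.Char.Basic.isCharacter_of_isIrrCharacter χ.2)
  have h1 : ∀ ξ : IrrCharacter K, classInner (ht K (x' : G) χ) (ξ : K → ℂ) ∈ Zr r := by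
    intro ξ
    obtain ⟨n, hn⟩ := exists_nat_classInner hrc
      (Cfsg.Agent.Lib.Char.Basic.isCharacter_of_isIrrCharacter ξ.2)
    rw [classInner_ht_eq hz χ ξ hn]
    exact mul_mem (root_mem_Zr (epz_root ξ hz hx)) (natCast_mem_Zr n)
  exact mem_Zr_of_cc hM hb hr h1 h1

/-- The facts on a major subsection. -/
theorem major_facts (hM : IsPModular p M) {x : G} {k : ℕ} (hk : orderOf x = p ^ k)
    {B : Set (IrrCharacter G)} (hB : IsPBlock M B) (hKx : K = Subgroup.centralizer ({x} : Set G))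
    {b : Set (IrrCharacter K)} (hb : IsInducedBlock M K b B)
    (hq : blockDefect p b = blockDefect p B) {χ : IrrCharacter G} (hχ : χ ∈ B) :
    qq p b x χ ≠ 0 ∧ MemLocalRing M (qq p b x χ / ((p ^ blockHeight p B (χ : G → ℂ) : ℕ) : ℂ)) := by
  subst hKx
  classical
  haveI hMp := isPrime_of_pModular hM
  have hp : p.Prime := Fact.out
  haveI : Finite B := Set.toFinite B
  letI : Fintype B := Fintype.ofFinite _
  have hne := isPBlock_nonempty hB
  obtain ⟨m, hdef, -, -, -, -, hnot, -⟩ := exists_matrix_def hM hk hB hb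
  set w := Nat.card G / p ^ (Nat.card G).factorization p with hw
  have hwp : ¬ p ∣ w := Nat.not_dvd_ordCompl hp Nat.card_pos.ne'
  have hsame : ∀ (Z : Subalgebra.center ℂ (GA G)), Z ∈ localCenter M G → ∀ {a c : IrrCharacter G},
      a ∈ B → c ∈ B → MemLocalIdeal M (omegaHom a Z) → MemLocalIdeal M (omegaHom c Z) := by
    intro Z hZl a c ha hc hmem
    have hs : SameBlock M (c : G → ℂ) (a : G → ℂ) := by
      have := isPBlock_eq_blockOf hB ha
      rw [this] at hc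
      exact sameBlock_symm hc
    have h2 := omegaHom_sub_mem_of_sameBlock hs hZl
    have h3 := memLocalIdeal_add h2 hmem
    simpa using h3
  constructor
  · -- nonvanishing
    obtain ⟨τ₀, hτ₀, hτe⟩ := exists_minExp p hne
    have hτ0 : blockHeight p B (τ₀ : G → ℂ) = 0 := by
      change (charDegree (τ₀ : G → ℂ)).factorization p - minExp p B = 0
      omega
    obtain ⟨Z, hZl, hΩ⟩ := exists_omega (M := M) hM hk hb.1 hne hq τ₀
    obtain ⟨ti, hti, ei⟩ := hΩ τ₀ hτ₀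
    obtain ⟨tj, htj, ej⟩ := hΩ χ hχ
    rw [hτ0, pow_zero, Nat.cast_one, div_one] at ei
    obtain ⟨hu1, hu2⟩ := unit_aux (M := M) hM htj hwp
    obtain ⟨hv1, hv2⟩ := unit_aux (M := M) hM hti hwp
    have hωi : ¬ MemLocalIdeal M (omegaHom τ₀ Z) := by
      intro h
      apply hnot ⟨τ₀, hτ₀⟩ ⟨τ₀, hτ₀⟩ hτ0 hτ0
      rw [hdef]
      change MemLocalIdeal M (mm p x b τ₀ τ₀)
      rw [ei]
      exact memLocalIdeal_mul_left hv1 h
    have hωj : ¬ MemLocalIdeal M (omegaHom χ Z) := fun h => hωi (hsame Z hZl hχ hτ₀ h)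
    have hl := omegaHom_mem_local χ hZl
    have hne1 := notMem_mul hu1 hu2 hl hωj
    rw [← ej] at hne1
    have hne2 := ne_zero_of_notMem hne1
    have hpc : ((p ^ blockHeight p B (χ : G → ℂ) : ℕ) : ℂ) ≠ 0 :=
      Nat.cast_ne_zero.mpr (pow_ne_zero _ hp.ne_zero)
    have hne3 : mm p x b τ₀ χ ≠ 0 := fun h => hne2 (by rw [h, zero_div])
    have hne4 : classInner (PP p b (vt x τ₀)) (PP p b (vt x χ)) ≠ 0 := fun h =>
      hne3 (by rw [mm, h, mul_zero])
    have hne5 := eq_zero_of_classInner_ne hne4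
    have hne6 := classInner_self_ne_zero hne5
    rw [qq]
    exact mul_ne_zero (Nat.cast_ne_zero.mpr (pow_ne_zero _ hp.ne_zero)) hne6
  · obtain ⟨Z, hZl, hΩ⟩ := exists_omega (M := M) hM hk hb.1 hne hq χ
    obtain ⟨t, ht', e⟩ := hΩ χ hχ
    change MemLocalRing M (mm p x b χ χ / _)
    rw [e]
    obtain ⟨hu1, -⟩ := unit_aux (M := M) hM ht' hwp
    exact memLocalRing_mul hu1 (omegaHom_mem_local χ hZl)

end Main

section Galois

variable {G : Type u} [Group G]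

theorem exists_inv_exp {k r : ℕ} (hk : k.Coprime r) : ∃ l : ℕ, k * l ≡ 1 [MOD r] := by
  by_cases hr : 1 < r
  · obtain ⟨m, -, hm⟩ := Nat.exists_mul_mod_eq_one_of_coprime hk hr
    refine ⟨m, ?_⟩
    rw [Nat.ModEq, hm, Nat.mod_eq_of_lt hr]
  · have : r = 0 ∨ r = 1 := by omega
    rcases this with rfl | rfl
    · rw [Nat.coprime_zero_right] at hk
      subst hk
      exact ⟨1, rfl⟩
    · exact ⟨0, Nat.modEq_one⟩

theorem pow_congr_of_pow_eq_one {z : G} {r a b : ℕ} (hz : z ^ r = 1) (h : a ≡ b [MOD r]) :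
    z ^ a = z ^ b := by
  rw [pow_eq_pow_mod a hz, pow_eq_pow_mod b hz, h]

/-- Summation over a set of elements permuted by the power map. -/
theorem sum_pow_eq {Zs : Finset G} {r k : ℕ} [DecidableEq G] (hZ1 : ∀ z ∈ Zs, z ^ r = 1)
    (hZ2 : ∀ z ∈ Zs, ∀ k : ℕ, k.Coprime r → z ^ k ∈ Zs) (hk : k.Coprime r) (f : G → ℝ) :
    ∑ z ∈ Zs, f (z ^ k) = ∑ z ∈ Zs, f z := by
  obtain ⟨l, hl⟩ := exists_inv_exp hk
  have hlc : l.Coprime r := by
    have h1 : Nat.gcd (k * l) r = Nat.gcd 1 r := hl.gcd_eq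
    rw [Nat.gcd_one_left] at h1
    exact Nat.Coprime.coprime_dvd_left (dvd_mul_left l k) h1
  refine Finset.sum_nbij' (fun z => z ^ k) (fun z => z ^ l) (fun z hz => hZ2 z hz k hk)
    (fun z hz => hZ2 z hz l hlc) (fun z hz => ?_) (fun z hz => ?_) (fun z _ => rfl)
  · rw [← pow_mul, pow_congr_of_pow_eq_one (hZ1 z hz) hl, pow_one]
  · rw [← pow_mul, mul_comm, pow_congr_of_pow_eq_one (hZ1 z hz) hl, pow_one]

/-- **The Galois average.** -/
theorem card_le_sum_galois {r : ℕ} [NeZero r] {Zs : Finset G} [DecidableEq G]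
    (hZ1 : ∀ z ∈ Zs, z ^ r = 1)
    (hZ2 : ∀ z ∈ Zs, ∀ k : ℕ, k.Coprime r → z ^ k ∈ Zs) {q : G → ℂ} {ρ : G → ℝ}
    (hρ : ∀ z ∈ Zs, 0 ≤ ρ z) (hq : ∀ z ∈ Zs, q z = ρ z) (hZr : ∀ z ∈ Zs, q z ∈ Zr r)
    (h0 : ∀ z ∈ Zs, q z ≠ 0)
    (hsig : ∀ z ∈ Zs, ∀ (σ : Kn r →ₐ[ℚ] ℂ) (k : ℕ), k.Coprime r →
      (∀ w : Kn r, w ^ r = 1 → σ w = (w : ℂ) ^ k) → sig σ (q z) = q (z ^ k)) :
    (Zs.card : ℝ) ≤ ∑ z ∈ Zs, ρ z := by
  have hr : r ≠ 0 := NeZero.ne r
  choose kk hkk1 hkk2 using fun σ : Kn r →ₐ[ℚ] ℂ => exists_pow_of_algHom r σ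
  have h1 : ∀ z ∈ Zs, (Fintype.card (Kn r →ₐ[ℚ] ℂ) : ℝ) ≤ ∑ σ : Kn r →ₐ[ℚ] ℂ, ρ (z ^ kk σ) := by
    intro z hz
    have hK := mem_Kn_of_mem_Zr hr (hZr z hz)
    have h2 := one_le_prod_norm (⟨q z, hK⟩ : Kn r) (isIntegral_subtype hK (isIntegral_of_mem_Zr hr (hZr z hz)))
      (fun h => h0 z hz (congrArg Subtype.val h))
    have h3 : ∀ σ : Kn r →ₐ[ℚ] ℂ, ‖σ ⟨q z, hK⟩‖ = ρ (z ^ kk σ) := by
      intro σ
      rw [← sig_of_mem σ hK, hsig z hz σ (kk σ) (hkk1 σ) (hkk2 σ),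
        hq _ (hZ2 z hz _ (hkk1 σ)), Complex.norm_real, Real.norm_of_nonneg (hρ _ (hZ2 z hz _ (hkk1 σ)))]
    simp only [h3] at h2
    have h4 := card_le_sum_of_one_le_prod Finset.univ (fun σ : Kn r →ₐ[ℚ] ℂ => ρ (z ^ kk σ))
      (fun σ _ => hρ _ (hZ2 z hz _ (hkk1 σ))) h2
    rwa [Finset.card_univ] at h4
  have h5 : ∑ z ∈ Zs, (Fintype.card (Kn r →ₐ[ℚ] ℂ) : ℝ) ≤
      ∑ z ∈ Zs, ∑ σ : Kn r →ₐ[ℚ] ℂ, ρ (z ^ kk σ) := Finset.sum_le_sum h1
  rw [Finset.sum_comm] at h5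
  have h6 : ∀ σ : Kn r →ₐ[ℚ] ℂ, ∑ z ∈ Zs, ρ (z ^ kk σ) = ∑ z ∈ Zs, ρ z := fun σ =>
    sum_pow_eq hZ1 hZ2 (hkk1 σ) ρ
  simp only [h6, Finset.sum_const, Finset.card_univ, nsmul_eq_mul] at h5
  have hc : (0 : ℝ) < Fintype.card (Kn r →ₐ[ℚ] ℂ) := by exact_mod_cast card_alg_pos r
  nlinarith [h5]

end Galois

end Cfsg.Agent.Lib.Blk89.HCLow
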