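import Mathlib
import Cfsg.Agent.Lib.Blk89.HCLow
import Cfsg.Agent.Lib.BlockH.ConjPair
import Cfsg.Agent.Lib.Blocks.PPart

/-!
# Major subsections: the upper bound

For a family of subsections `(z, F z)` the sum of the numbers `(PP ϑ_z, PP ϑ_z)` is bounded by the
number of cosets of the centralizers that conjugate one subsection of the family to another.
-/

set_option linter.unusedSectionVars false
set_option autoImplicit false
set_option linter.style.haveILetI false

namespace Cfsg.Agent.Lib.Blk89.HCUp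

open Cfsg MonoidAlgebra
open Cfsg.Agent.Lib.Blocks.Local Cfsg.Agent.Lib.Blocks.Central
open Cfsg.Agent.Lib.BlockH.Regular Cfsg.Agent.Lib.BlockP.Defect
open Cfsg.Agent.Lib.Char.Ortho
open Cfsg.Agent.Lib.Contrib.Proj Cfsg.Agent.Lib.Contrib.Family
open Cfsg.Agent.Lib.Contrib.Section
open Cfsg.Agent.Lib.BlockH.Transport Cfsg.Agent.Lib.BlockH.ConjPair
open Cfsg.Agent.Lib.Blocks.PPart
open Cfsg.Agent.Lib.Blk89.HCLow
open scoped ComplexConjugate

universe u

section Transport

variable {K K' : Type u} [Group K] [Group K'] [Fintype K] [Fintype K']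
  [Fintype (IrrCharacter K)] [Fintype (IrrCharacter K')] {p : ℕ} {M : Ideal AlgInt} [Fact p.Prime]

theorem classInner_comp (ρ : K ≃* K') (f g : K' → ℂ) :
    classInner (f ∘ ρ) (g ∘ ρ) = classInner f g := by
  rw [classInner_def, classInner_def, Nat.card_congr ρ.toEquiv]
  congr 1
  exact Fintype.sum_equiv ρ.toEquiv _ _ fun u => rfl

theorem pRegularPart_comp (ρ : K ≃* K') (f : K' → ℂ) (u : K) :
    pRegularPart p f (ρ u) = pRegularPart p (f ∘ ρ) u := by
  classical
  rw [pRegularPart_apply, pRegularPart_apply]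
  have h : IsPRegular p (ρ u) ↔ IsPRegular p u := by
    simp only [IsPRegular, MulEquiv.orderOf_eq]
  by_cases hu : IsPRegular p u
  · rw [if_pos hu, if_pos (h.mpr hu)]
    rfl
  · rw [if_neg hu, if_neg (fun hh => hu (h.mp hh))]

theorem PP_comp (ρ : K ≃* K') (f' : Set (IrrCharacter K')) (h' : K' → ℂ) (u : K) :
    PP p f' h' (ρ u) = PP p (blockMap ρ.symm f') (h' ∘ ρ) u := by
  classical
  rw [PP_apply, PP_apply]
  symm
  refine Fintype.sum_equiv (irrEquiv ρ) _ _ fun ξ => ?_
  have hmem : ξ ∈ blockMap ρ.symm f' ↔ irrEquiv ρ ξ ∈ f' := by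
    rw [mem_blockMap_iff, MulEquiv.symm_symm]
    rfl
  have hcomp : (ξ : K → ℂ) = (irrEquiv ρ ξ : K' → ℂ) ∘ ρ := by
    funext c
    simp
  by_cases h : irrEquiv ρ ξ ∈ f'
  · rw [if_pos (hmem.mpr h), if_pos h, hcomp, classInner_comp, pRegularPart_comp]
  · rw [if_neg (fun hh => h (hmem.mp hh)), if_neg h]

theorem classInner_PP_PP_of_ne (hM : IsPModular p M) {f f₂ : Set (IrrCharacter K)} (hf : IsPBlock M f)
    (hf₂ : IsPBlock M f₂) (hne : f ≠ f₂) (h h₂ : K → ℂ) :
    classInner (PP p f h) (PP p f₂ h₂) = 0 := by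
  classical
  haveI := isPrime_of_pModular hM
  rw [classInner_PP_right]
  refine Finset.sum_eq_zero fun ξ _ => ?_
  by_cases hξ : ξ ∈ f₂
  · have hξf : ξ ∉ f := fun hh =>
      hne (by rw [isPBlock_eq_blockOf hf hh, isPBlock_eq_blockOf hf₂ hξ])
    rw [classInner_PP_reg, classInner_PP_eq_zero hM hf h hξf, mul_zero]
  · rw [cc_of_notMem h₂ hξ]
    simp

end Transport

section Sec

variable {G : Type u} [Group G] [Fintype G] {p : ℕ} {M : Ideal AlgInt}

/-- Extension by zero. -/
noncomputable def ext0 (K : Subgroup G) (φ : K → ℂ) : G → ℂ := by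
  classical exact fun u => if h : u ∈ K then φ ⟨u, h⟩ else 0

theorem ext0_coe (K : Subgroup G) (φ : K → ℂ) (u : K) : ext0 K φ (u : G) = φ u := by
  simp [ext0]

theorem ext0_of_notMem (K : Subgroup G) (φ : K → ℂ) {u : G} (h : u ∉ K) : ext0 K φ u = 0 := by
  simp [ext0, h]

/-- The induced function of a section. -/
noncomputable def Ef (K : Subgroup G) (z : G) (φ : K → ℂ) : G → ℂ :=
  fun g => (Nat.card K : ℂ)⁻¹ * ∑ x : G, ext0 K φ (z⁻¹ * (x⁻¹ * g * x))

theorem isClassFunction_Ef (K : Subgroup G) (z : G) (φ : K → ℂ) : IsClassFunction G (Ef K z φ) := by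
  intro g h
  simp only [Ef]
  congr 1
  refine Fintype.sum_equiv (Equiv.mulLeft h⁻¹) _ _ fun x => ?_
  congr 2
  simp only [Equiv.coe_mulLeft]
  group

theorem sum_ext0 (K : Subgroup G) [Fintype K] (φ : K → ℂ) (F : G → ℂ) :
    ∑ v : G, ext0 K φ v * F v = ∑ u : K, φ u * F u := by
  classical
  rw [Cfsg.Agent.Lib.Blocks.Induced.sum_eq_sum_subgroup K _ (fun g hg => by
    rw [ext0_of_notMem K φ hg, zero_mul])]
  refine Fintype.sum_congr _ _ fun u => ?_
  rw [ext0_coe]

theorem classInner_Ef (K : Subgroup G) [Fintype K] (z : G) (φ : K → ℂ) {ψ : G → ℂ}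
    (hψ : IsClassFunction G ψ) :
    classInner (Ef K z φ) ψ = (Nat.card K : ℂ)⁻¹ * ∑ u : K, φ u * conj (ψ (z * u)) := by
  have h1 : ∀ x : G, ∑ g : G, ext0 K φ (z⁻¹ * (x⁻¹ * g * x)) * conj (ψ g) =
      ∑ v : G, ext0 K φ v * conj (ψ (z * v)) := by
    intro x
    let e : G ≃ G := (MulAut.conj x⁻¹).toEquiv.trans (Equiv.mulLeft z⁻¹)
    have he : ∀ g, e g = z⁻¹ * (x⁻¹ * g * x) := fun g => by
      simp [e]
    refine Fintype.sum_equiv e _ _ fun g => ?_
    rw [he]
    congr 2
    have h2 := hψ g x⁻¹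
    rw [inv_inv] at h2
    rw [← h2]
    congr 1
    group
  rw [classInner_def]
  simp only [Ef]
  have h2 : ∑ g : G, ((Nat.card K : ℂ)⁻¹ * ∑ x : G, ext0 K φ (z⁻¹ * (x⁻¹ * g * x))) * conj (ψ g) =
      (Nat.card K : ℂ)⁻¹ * ∑ x : G, ∑ g : G, ext0 K φ (z⁻¹ * (x⁻¹ * g * x)) * conj (ψ g) := by
    rw [Finset.sum_comm, Finset.mul_sum]
    refine Fintype.sum_congr _ _ fun g => ?_
    rw [mul_assoc, Finset.sum_mul]
  rw [h2]
  simp only [h1, Finset.sum_const, Finset.card_univ, nsmul_eq_mul]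
  rw [sum_ext0 K φ (fun v => conj (ψ (z * v)))]
  have hG : (Nat.card G : ℂ) ≠ 0 := Nat.cast_ne_zero.mpr Nat.card_pos.ne'
  rw [Nat.card_eq_fintype_card] at hG ⊢
  field_simp

theorem isPPart_of {g z v : G} (h : z * v = g) (hc : Commute z v) (hz : ∃ k : ℕ, orderOf z = p ^ k)
    (hv : ¬ p ∣ orderOf v) : IsPPart p g z := ⟨v, h, hc, hz, hv⟩

open Classical in
/-- The vanishing of the values at other sections. -/
theorem ext0_shift_eq [Fact p.Prime] {K' : Subgroup G} {z z' w u : G} (φ' : K' → ℂ)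
    (hreg' : ∀ v : K', p ∣ orderOf v → φ' v = 0) (hz : ∃ k : ℕ, orderOf z = p ^ k)
    (hz' : ∃ k : ℕ, orderOf z' = p ^ k) (hK' : ∀ v ∈ K', Commute z' v) (hc : Commute z u)
    (hu : ¬ p ∣ orderOf u) :
    ext0 K' φ' (z'⁻¹ * (w * (z * u) * w⁻¹)) =
      if w * z * w⁻¹ = z' then ext0 K' φ' (w * u * w⁻¹) else 0 := by
  have hfac : w * (z * u) * w⁻¹ = (w * z * w⁻¹) * (w * u * w⁻¹) := by group
  by_cases hw : w * z * w⁻¹ = z'
  · rw [if_pos hw, hfac, hw, inv_mul_cancel_left]
  · rw [if_neg hw]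
    set v := z'⁻¹ * (w * (z * u) * w⁻¹) with hv
    by_cases hvK : v ∈ K'
    · by_cases hvr : p ∣ orderOf v
      · have := hreg' ⟨v, hvK⟩ (by rwa [Subgroup.orderOf_mk])
        rw [← this]
        exact ext0_coe K' φ' ⟨v, hvK⟩
      · exfalso
        apply hw
        have h1 : IsPPart p (w * (z * u) * w⁻¹) z' :=
          isPPart_of (v := v) (by rw [hv]; group) (hK' v hvK) hz' hvr
        have hconj : ∀ a : G, orderOf (w * a * w⁻¹) = orderOf a := fun a => by
          rw [← MulAut.conj_apply, MulEquiv.orderOf_eq]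
        have h2 : IsPPart p (w * (z * u) * w⁻¹) (w * z * w⁻¹) := by
          refine isPPart_of (v := w * u * w⁻¹) hfac.symm ?_ ?_ ?_
          · have : Commute (MulAut.conj w z) (MulAut.conj w u) := hc.map (MulAut.conj w)
            simpa [MulAut.conj_apply] using this
          · rwa [show orderOf (w * z * w⁻¹) = orderOf z from hconj z]
          · rwa [hconj u]
        exact isPPart_unique h2 h1
    · exact ext0_of_notMem K' φ' hvK

open Classical in
/-- The Mackey formula for sections. -/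
theorem classInner_Ef_Ef [Fact p.Prime] {K K' : Subgroup G} [Fintype K] [Fintype K'] {z z' : G} (φ : K → ℂ)
    (φ' : K' → ℂ) (hreg : ∀ v : K, p ∣ orderOf v → φ v = 0)
    (hreg' : ∀ v : K', p ∣ orderOf v → φ' v = 0) (hz : ∃ k : ℕ, orderOf z = p ^ k)
    (hz' : ∃ k : ℕ, orderOf z' = p ^ k) (hK : ∀ v ∈ K, Commute z v) (hK' : ∀ v ∈ K', Commute z' v) :
    classInner (Ef K z φ) (Ef K' z' φ') =
      (Nat.card K' : ℂ)⁻¹ * ∑ w : G, if w * z * w⁻¹ = z' then
        (Nat.card K : ℂ)⁻¹ * ∑ u : K, φ u * conj (ext0 K' φ' (w * u * w⁻¹)) else 0 := by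
  rw [classInner_Ef K z φ (isClassFunction_Ef K' z' φ')]
  have h1 : ∀ u : K, φ u * conj (Ef K' z' φ' (z * u)) =
      (Nat.card K' : ℂ)⁻¹ * ∑ w : G, if w * z * w⁻¹ = z' then
        φ u * conj (ext0 K' φ' (w * u * w⁻¹)) else 0 := by
    intro u
    simp only [Ef, map_mul, map_inv₀, Complex.conj_natCast, map_sum]
    rw [mul_left_comm, Finset.mul_sum]
    congr 1
    refine Fintype.sum_equiv (Equiv.inv G) _ _ fun x => ?_
    have hw := ext0_shift_eq (w := x⁻¹) (u := (u : G)) φ' hreg' hz hz' hK' (hK u u.2)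
    by_cases hu : p ∣ orderOf (u : G)
    · rw [hreg u (by rwa [Subgroup.orderOf_coe] at hu)]
      simp
    · have hw' := hw hu
      simp only [Equiv.inv_apply, inv_inv] at hw' ⊢
      rw [hw']
      split_ifs <;> simp
  simp only [h1]
  rw [← Finset.mul_sum, mul_left_comm]
  congr 1
  rw [Finset.sum_comm, Finset.mul_sum]
  refine Fintype.sum_congr _ _ fun w => ?_
  by_cases hw : w * z * w⁻¹ = z'
  · simp only [if_pos hw]
  · simp only [if_neg hw, Finset.sum_const_zero, mul_zero]

theorem classInner_sub_smul_self (f S : G → ℂ) (t : ℝ) :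
    classInner (fun g => f g - t * S g) (fun g => f g - t * S g) =
      classInner f f - t * classInner f S - t * classInner S f + t * t * classInner S S := by
  simp only [classInner_def]
  simp only [map_sub, map_mul, Complex.conj_ofReal]
  have h : ∑ x, (f x - (t : ℂ) * S x) * (conj (f x) - (t : ℂ) * conj (S x)) =
      ∑ g, f g * conj (f g) - (t : ℂ) * ∑ g, f g * conj (S g) - (t : ℂ) * ∑ g, S g * conj (f g) +
        (t : ℂ) * t * ∑ g, S g * conj (S g) := by
    rw [Finset.mul_sum, Finset.mul_sum, Finset.mul_sum, ← Finset.sum_sub_distrib,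
      ← Finset.sum_sub_distrib, ← Finset.sum_add_distrib]
    refine Fintype.sum_congr _ _ fun g => ?_
    ring
  rw [h]
  ring

theorem classInner_self_re_nonneg (f : G → ℂ) : 0 ≤ (classInner f f).re := by
  rw [Cfsg.Agent.Lib.Char.Ortho.classInner_self_eq, Complex.ofReal_re]
  positivity

theorem classInner_self_im (f : G → ℂ) : (classInner f f).im = 0 := by
  rw [Cfsg.Agent.Lib.Char.Ortho.classInner_self_eq, Complex.ofReal_im]

end Sec

section Main

variable {G : Type u} [Group G] [Fintype G] [Fintype (IrrCharacter G)] {p : ℕ} {M : Ideal AlgInt}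
  [Fact p.Prime]
  [hKf : ∀ K : Subgroup G, Fintype K] [hKi : ∀ K : Subgroup G, Fintype (IrrCharacter K)]

/-- The centralizer of a cyclic subgroup. -/
abbrev Kz (z : G) : Subgroup G := Subgroup.centralizer ((Subgroup.zpowers z : Subgroup G) : Set G)

theorem z_comm (z : G) : ∀ v ∈ Kz z, Commute z v := fun v hv =>
  (Subgroup.mem_centralizer_iff.mp hv z (Subgroup.mem_zpowers z))

theorem z_mem (z : G) : z ∈ Kz z := by
  rw [Subgroup.mem_centralizer_iff]
  intro h hh
  obtain ⟨k, rfl⟩ := Subgroup.mem_zpowers_iff.mp hh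
  exact ((Commute.refl z).zpow_left k).eq

/-- The projected function. -/
noncomputable def phi (p : ℕ) (z : G) (f : Set (IrrCharacter (Kz z))) (χ : IrrCharacter G) : Kz z → ℂ :=
  PP p f (ht (Kz z) z χ)

theorem phi_reg (z : G) (f : Set (IrrCharacter (Kz z))) (χ : IrrCharacter G) (v : Kz z)
    (hv : p ∣ orderOf v) : phi p z f χ v = 0 := by
  classical
  rw [phi, PP, pRegularPart_apply, if_neg]
  simpa [IsPRegular] using hv

theorem isClassFunction_ht (z : G) (χ : IrrCharacter G) : IsClassFunction (Kz z) (ht (Kz z) z χ) :=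
  isClassFunction_shift_sub (Kz z) (Cfsg.Agent.Lib.Char.Basic.isCharacter_of_isIrrCharacter χ.2)
    (z_mem z) (fun g => z_comm z g g.2)

/-- The value of the induced function at the character. -/
theorem classInner_Ef_chi (hM : IsPModular p M) {z : G} {f : Set (IrrCharacter (Kz z))}
    (hf : IsPBlock M f) (χ : IrrCharacter G) :
    classInner (Ef (Kz z) z (phi p z f χ)) (χ : G → ℂ) =
      classInner (phi p z f χ) (phi p z f χ) := by
  rw [classInner_Ef (Kz z) z _ (Cfsg.Agent.Lib.Char.Basic.isClassFunction_of_isIrrCharacter χ.2)]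
  have h := classInner_PP_eq_PP hM hf (ht (Kz z) z χ) (isClassFunction_ht z χ)
  rw [phi, ← h, classInner_def]
  rfl

theorem map_zpowers_conj (w z : G) :
    (Subgroup.zpowers z).map (MulAut.conj w).toMonoidHom = Subgroup.zpowers (w * z * w⁻¹) := by
  rw [MonoidHom.map_zpowers]
  rfl

open Classical in
/-- The inner sum. -/
theorem inner_sum_eq (hM : IsPModular p M) {z z' w : G} (hw : w * z * w⁻¹ = z')
    (hmap : (Subgroup.zpowers z).map (MulAut.conj w).toMonoidHom = Subgroup.zpowers z')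
    {f : Set (IrrCharacter (Kz z))} {f' : Set (IrrCharacter (Kz z'))} (hf : IsPBlock M f)
    (hf' : IsPBlock M f') (χ : IrrCharacter G) :
    (Nat.card (Kz z) : ℂ)⁻¹ * ∑ u : Kz z, phi p z f χ u * conj (ext0 (Kz z') (phi p z' f' χ) (w * u * w⁻¹)) =
      if blockMap (conjEquivOf w hmap) f = f' then classInner (phi p z f χ) (phi p z f χ) else 0 := by
  classical
  set ρ : Kz z ≃* Kz z' := conjEquivOf w hmap with hρ
  have h1 : ∀ u : Kz z, ext0 (Kz z') (phi p z' f' χ) (w * u * w⁻¹) =
      PP p (blockMap ρ.symm f') (ht (Kz z) z χ) u := by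
    intro u
    have e : w * (u : G) * w⁻¹ = ((ρ u : Kz z') : G) := rfl
    have h12 : (ht (Kz z') z' χ) ∘ ρ = ht (Kz z) z χ := by
      funext c
      simp only [Function.comp_apply, ht]
      have e2 : z' * ((ρ c : Kz z') : G) = w * (z * c) * w⁻¹ := by
        have hz1 : z' = w * z * w⁻¹ := hw.symm
        calc z' * ((ρ c : Kz z') : G) = z' * (w * c * w⁻¹) := rfl
          _ = (w * z * w⁻¹) * (w * c * w⁻¹) := by rw [hz1]
          _ = _ := by group
      rw [e2]
      have := Cfsg.Agent.Lib.Char.Basic.isClassFunction_of_isIrrCharacter χ.2 (z * c) w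
      exact this
    rw [e, ext0_coe, phi, PP_comp, h12]
  simp only [h1]
  have h2 : (Nat.card (Kz z) : ℂ)⁻¹ * ∑ u : Kz z, phi p z f χ u *
      conj (PP p (blockMap ρ.symm f') (ht (Kz z) z χ) u) =
      classInner (phi p z f χ) (PP p (blockMap ρ.symm f') (ht (Kz z) z χ)) := by
    rw [classInner_def]
  rw [h2]
  by_cases hb : blockMap ρ f = f'
  · rw [if_pos hb, ← hb, blockMap_symm_blockMap]
    rfl
  · rw [if_neg hb]
    refine classInner_PP_PP_of_ne hM hf (isPBlock_blockMap _ hf') ?_ _ _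
    intro he
    apply hb
    rw [he, blockMap_blockMap_symm]

theorem card_Kz_eq {z z' w : G} (hmap : (Subgroup.zpowers z).map (MulAut.conj w).toMonoidHom = Subgroup.zpowers z') :
    Nat.card (Kz z') = Nat.card (Kz z) :=
  (Nat.card_congr (conjEquivOf w hmap).toEquiv).symm

/-- **The Bessel bound.** -/
theorem sum_le (hM : IsPModular p M) (χ : IrrCharacter G) (Zs : Finset G)
    (hZp : ∀ z ∈ Zs, ∃ k : ℕ, orderOf z = p ^ k)
    (F : ∀ z : G, Set (IrrCharacter (Kz z))) (hF : ∀ z ∈ Zs, IsPBlock M (F z))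
    (Tr : Finset G) (hTr : 0 < Tr.card)
    (hW : ∀ z ∈ Zs, ∀ z' ∈ Zs, ∀ w : G, ∀ hmap : (Subgroup.zpowers z).map (MulAut.conj w).toMonoidHom = Subgroup.zpowers z',
      w * z * w⁻¹ = z' → blockMap (conjEquivOf w hmap) (F z) = F z' →
        ∃ t ∈ Tr, ∃ c ∈ Kz z, w = t * c) :
    ∑ z ∈ Zs, (classInner (phi p z (F z) χ) (phi p z (F z) χ)).re ≤ Tr.card := by
  classical
  set N : G → ℂ := fun z => classInner (phi p z (F z) χ) (phi p z (F z) χ) with hN
  set E : G → G → ℂ := fun z => Ef (Kz z) z (phi p z (F z) χ) with hE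
  set S : G → ℂ := fun g => ∑ z ∈ Zs, E z g with hS
  set e : ℝ := (Tr.card : ℝ) with he
  have he0 : 0 < e := by
    rw [he]
    exact_mod_cast hTr
  set X : ℝ := ∑ z ∈ Zs, (N z).re with hX
  have hX0 : 0 ≤ X := Finset.sum_nonneg fun z _ => classInner_self_re_nonneg _
  -- linearity of the inner product in the first variable
  have hlin : ∀ (ψ : G → ℂ), classInner S ψ = ∑ z ∈ Zs, classInner (E z) ψ := by
    intro ψ
    simp only [classInner_def, hS]
    rw [← Finset.mul_sum]
    congr 1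
    simp only [Finset.sum_mul]
    rw [Finset.sum_comm]
  have hSχ : classInner S (χ : G → ℂ) = ∑ z ∈ Zs, N z := by
    rw [hlin]
    exact Finset.sum_congr rfl fun z hz => classInner_Ef_chi hM (hF z hz) χ
  have hNreal : ∀ z, (N z : ℂ) = ((N z).re : ℂ) := fun z => by
    apply Complex.ext
    · simp
    · simp [hN, classInner_self_im]
  have hSχre : classInner S (χ : G → ℂ) = (X : ℂ) := by
    rw [hSχ, hX]
    push_cast
    exact Finset.sum_congr rfl fun z _ => hNreal z
  have hχS : classInner (χ : G → ℂ) S = (X : ℂ) := by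
    rw [← conj_classInner, hSχre, Complex.conj_ofReal]
  -- the second variable
  have hlin2 : ∀ z, classInner (E z) S = ∑ z' ∈ Zs, classInner (E z) (E z') := by
    intro z
    simp only [classInner_def, hS]
    rw [← Finset.mul_sum]
    congr 1
    simp only [map_sum, Finset.mul_sum]
    rw [Finset.sum_comm]
  -- the bound for fixed `z`
  have hbound : ∀ z ∈ Zs, (classInner (E z) S).re ≤ e * (N z).re := by
    intro z hz
    have hzc : (Nat.card (Kz z) : ℂ) ≠ 0 := Nat.cast_ne_zero.mpr Nat.card_pos.ne'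
    have hNn : 0 ≤ (N z).re := classInner_self_re_nonneg _
    set c : ℝ := (Nat.card (Kz z) : ℝ)⁻¹ * (N z).re with hc
    have hc0 : 0 ≤ c := by positivity
    set Good : Finset G := (Tr ×ˢ (Finset.univ : Finset (Kz z))).image
      (fun a => a.1 * ((a.2 : Kz z) : G)) with hGood
    have hcard : (Good.card : ℝ) ≤ e * Nat.card (Kz z) := by
      have h1 : Good.card ≤ Tr.card * Nat.card (Kz z) := by
        refine Finset.card_image_le.trans ?_
        rw [Finset.card_product, Finset.card_univ, Nat.card_eq_fintype_card]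
      rw [he]
      exact_mod_cast h1
    -- expression for the inner product
    have h2 : ∀ z' ∈ Zs, classInner (E z) (E z') = ∑ w : G, if w * z * w⁻¹ = z' then
        (Nat.card (Kz z) : ℂ)⁻¹ * ((Nat.card (Kz z) : ℂ)⁻¹ * ∑ u : Kz z,
          phi p z (F z) χ u * conj (ext0 (Kz z') (phi p z' (F z') χ) (w * u * w⁻¹))) else 0 := by
      intro z' hz'
      rw [hE]
      simp only
      rw [classInner_Ef_Ef _ _ (phi_reg z (F z) χ) (phi_reg z' (F z') χ) (hZp z hz) (hZp z' hz')
        (z_comm z) (z_comm z'), Finset.mul_sum]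
      refine Fintype.sum_congr _ _ fun w => ?_
      by_cases hw : w * z * w⁻¹ = z'
      · rw [if_pos hw, if_pos hw]
        have hmap : (Subgroup.zpowers z).map (MulAut.conj w).toMonoidHom = Subgroup.zpowers z' := by
          rw [map_zpowers_conj, hw]
        rw [card_Kz_eq hmap]
      · rw [if_neg hw, if_neg hw, mul_zero]
    rw [hlin2, Finset.sum_congr rfl h2, Finset.sum_comm]
    -- termwise
    have h3 : ∀ w : G, (∑ z' ∈ Zs, if w * z * w⁻¹ = z' then
        (Nat.card (Kz z) : ℂ)⁻¹ * ((Nat.card (Kz z) : ℂ)⁻¹ * ∑ u : Kz z,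
          phi p z (F z) χ u * conj (ext0 (Kz z') (phi p z' (F z') χ) (w * u * w⁻¹))) else 0).re ≤
        if w ∈ Good then c else 0 := by
      intro w
      by_cases hwZ : w * z * w⁻¹ ∈ Zs
      · set z' := w * z * w⁻¹ with hz'
        rw [Finset.sum_ite_eq Zs z', if_pos hwZ]
        have hmap : (Subgroup.zpowers z).map (MulAut.conj w).toMonoidHom = Subgroup.zpowers z' := by
          rw [map_zpowers_conj]
        rw [inner_sum_eq hM hz'.symm hmap (hF z hz) (hF z' hwZ) χ]
        by_cases hb : blockMap (conjEquivOf w hmap) (F z) = F z'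
        · rw [if_pos hb]
          obtain ⟨t, ht, d, hd, rfl⟩ := hW z hz z' hwZ w hmap hz'.symm hb
          have hgood : t * d ∈ Good := by
            rw [hGood, Finset.mem_image]
            exact ⟨(t, ⟨d, hd⟩), by simp [ht], rfl⟩
          rw [if_pos hgood, hc]
          have : ((Nat.card (Kz z) : ℂ)⁻¹ * N z).re = (Nat.card (Kz z) : ℝ)⁻¹ * (N z).re := by
            have e1 : (Nat.card (Kz z) : ℂ)⁻¹ = (((Nat.card (Kz z) : ℝ)⁻¹ : ℝ) : ℂ) := by
              push_cast
              rfl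
            rw [e1, Complex.re_ofReal_mul]
          exact this.le
        · rw [if_neg hb, mul_zero, Complex.zero_re]
          split_ifs
          · exact hc0
          · exact le_rfl
      · have h4 : ∀ z' ∈ Zs, ¬ w * z * w⁻¹ = z' := fun z' hz' h => hwZ (h ▸ hz')
        rw [Finset.sum_eq_zero (fun z' hz' => if_neg (h4 z' hz')), Complex.zero_re]
        split_ifs
        · exact hc0
        · exact le_rfl
    rw [Complex.re_sum]
    refine (Finset.sum_le_sum fun w _ => h3 w).trans ?_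
    calc ∑ w : G, (if w ∈ Good then c else 0) = (Good.card : ℝ) * c := by
          rw [Finset.sum_ite_mem, Finset.univ_inter, Finset.sum_const, nsmul_eq_mul]
      _ ≤ (e * Nat.card (Kz z)) * c := mul_le_mul_of_nonneg_right hcard hc0
      _ = e * (N z).re := by
          have hne : (Nat.card (Kz z) : ℝ) ≠ 0 := Nat.cast_ne_zero.mpr Nat.card_pos.ne'
          rw [hc]
          field_simp
  have hSS : (classInner S S).re ≤ e * X := by
    rw [hlin, Complex.re_sum, hX, Finset.mul_sum]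
    exact Finset.sum_le_sum hbound
  -- the final estimate
  have h0 := classInner_self_re_nonneg (fun g => (χ : G → ℂ) g - ((e⁻¹ : ℝ) : ℂ) * S g)
  rw [classInner_sub_smul_self, classInner_self_of_isIrr χ.2, hχS, hSχre] at h0
  have h5 : (1 - ((e⁻¹ : ℝ) : ℂ) * (X : ℂ) - ((e⁻¹ : ℝ) : ℂ) * (X : ℂ) +
      ((e⁻¹ : ℝ) : ℂ) * ((e⁻¹ : ℝ) : ℂ) * classInner S S).re =
      1 - e⁻¹ * X - e⁻¹ * X + e⁻¹ * e⁻¹ * (classInner S S).re := by
    rw [Complex.add_re, Complex.sub_re, Complex.sub_re, Complex.one_re, Complex.re_ofReal_mul,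
      Complex.ofReal_re, ← Complex.ofReal_mul (e⁻¹) (e⁻¹), Complex.re_ofReal_mul]
  rw [h5] at h0
  have h6 : e⁻¹ * e⁻¹ * (classInner S S).re ≤ e⁻¹ * e⁻¹ * (e * X) :=
    mul_le_mul_of_nonneg_left hSS (mul_nonneg (inv_nonneg.mpr he0.le) (inv_nonneg.mpr he0.le))
  have h7 : e⁻¹ * e⁻¹ * (e * X) = e⁻¹ * X := by
    field_simp
  have h8 : 0 ≤ 1 - e⁻¹ * X := by linarith
  have h9 : e⁻¹ * X ≤ 1 := by linarith
  have h10 : X ≤ e := by
    have := mul_le_mul_of_nonneg_left h9 he0.le
    rwa [mul_one, ← mul_assoc, mul_inv_cancel₀ he0.ne', one_mul] at this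
  exact h10

end Main

end Cfsg.Agent.Lib.Blk89.HCUp
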