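import Mathlib
import Cfsg.Agent.Lib.Core.Basic

/-!
# Counting with an automorphism of order at most two

* `fixS`, `exists_large_centralizer_of_aut`: a Brauer–Fowler argument for a nontrivial involutory
  automorphism with few fixed points.
* `card_eq_index_pow`: a group that is minimal under a group of automorphisms and has a maximal
  normal subgroup of index `s` has order a power of `s`.
* `card_le_of_proper_subgroup`.
-/

set_option autoImplicit false
set_option linter.style.haveILetI false

namespace Cfsg.Agent.Lib.Blk89.InvAut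

open Cfsg

universe u

/-- The subgroup of fixed points of an automorphism. -/
def fixS {X : Type u} [Group X] (σ : X ≃* X) : Subgroup X where
  carrier := {x | σ x = x}
  mul_mem' := by
    intro a b ha hb
    simp only [Set.mem_setOf_eq] at ha hb ⊢
    rw [map_mul, ha, hb]
  one_mem' := by simp
  inv_mem' := by
    intro a ha
    simp only [Set.mem_setOf_eq] at ha ⊢
    rw [map_inv, ha]

@[simp] theorem mem_fixS {X : Type u} [Group X] (σ : X ≃* X) (x : X) : x ∈ fixS σ ↔ σ x = x :=
  Iff.rfl

section Fibers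

variable {N : Type u} [Group N]

/-- A finite set whose left quotients lie in `A` has at most `|A|` elements. -/
theorem card_le_of_left_quot [Finite N] (S : Finset N) (A : Subgroup N)
    (h : ∀ x ∈ S, ∀ y ∈ S, x⁻¹ * y ∈ A) : S.card ≤ Nat.card A := by
  classical
  letI := Fintype.ofFinite N
  letI : Fintype A := Fintype.ofFinite A
  rcases S.eq_empty_or_nonempty with rfl | ⟨x₀, hx₀⟩
  · simp
  rw [Nat.card_eq_fintype_card]
  have : S.card ≤ (Finset.univ : Finset A).card := by
    refine Finset.card_le_card_of_injOn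
      (fun y => if hy : y ∈ S then (⟨x₀⁻¹ * y, h x₀ hx₀ y hy⟩ : A) else 1) (fun _ _ => Finset.mem_univ _) ?_
    intro a ha b hb hab
    have ha' : a ∈ S := ha
    have hb' : b ∈ S := hb
    simp only [ha', hb', dif_pos] at hab
    have := congrArg Subtype.val hab
    simpa using this
  simpa using this

/-- A finite set whose right quotients lie in `A` has at most `|A|` elements. -/
theorem card_le_of_right_quot [Finite N] (S : Finset N) (A : Subgroup N)
    (h : ∀ x ∈ S, ∀ y ∈ S, x * y⁻¹ ∈ A) : S.card ≤ Nat.card A := by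
  classical
  letI := Fintype.ofFinite N
  letI : Fintype A := Fintype.ofFinite A
  rcases S.eq_empty_or_nonempty with rfl | ⟨x₀, hx₀⟩
  · simp
  rw [Nat.card_eq_fintype_card]
  have : S.card ≤ (Finset.univ : Finset A).card := by
    refine Finset.card_le_card_of_injOn
      (fun y => if hy : y ∈ S then (⟨y * x₀⁻¹, h y hy x₀ hx₀⟩ : A) else 1) (fun _ _ => Finset.mem_univ _) ?_
    intro a ha b hb hab
    have ha' : a ∈ S := ha
    have hb' : b ∈ S := hb
    simp only [ha', hb', dif_pos] at hab
    have := congrArg Subtype.val hab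
    simpa using this
  simpa using this

end Fibers

section BF

variable {N : Type u} [Group N] [Finite N]

/-- **Brauer–Fowler for an automorphism.** -/
theorem exists_large_centralizer_of_aut (σ : N ≃* N) (hσ : ∀ x, σ (σ x) = x) {c : ℕ}
    (hc : Nat.card (fixS σ) ≤ c) (hne : ∃ x, σ x ≠ x) :
    ∃ g : N, g ≠ 1 ∧ Nat.card N ≤ 2 * c ^ 2 * Nat.card (Subgroup.centralizer ({g} : Set N)) := by
  classical
  letI := Fintype.ofFinite N
  set J : Finset N := Finset.univ.image (fun n => n * (σ n)⁻¹) with hJ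
  have hJmem : ∀ j ∈ J, σ j = j⁻¹ := by
    intro j hj
    obtain ⟨n, -, rfl⟩ := Finset.mem_image.mp hj
    simp [hσ]
  -- `|N| ≤ c |J|`
  have h1 : Fintype.card N ≤ c * J.card := by
    have := Finset.card_le_mul_card_image (s := (Finset.univ : Finset N))
      (f := fun n => n * (σ n)⁻¹) c (by
        intro j _
        refine le_trans (card_le_of_left_quot _ (fixS σ) ?_) hc
        intro x hx y hy
        simp only [Finset.mem_filter, Finset.mem_univ, true_and] at hx hy
        rw [mem_fixS, map_mul, map_inv]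
        have h2 : x * (σ x)⁻¹ = y * (σ y)⁻¹ := hx.trans hy.symm
        have h3 : x⁻¹ * y = (σ x)⁻¹ * σ y := by
          calc x⁻¹ * y = x⁻¹ * (y * (σ y)⁻¹) * σ y := by group
            _ = x⁻¹ * (x * (σ x)⁻¹) * σ y := by rw [h2]
            _ = (σ x)⁻¹ * σ y := by group
        exact h3.symm)
    simpa [hJ] using this
  have hone : (1 : N) ∈ J := by
    refine Finset.mem_image.mpr ⟨1, Finset.mem_univ _, by simp⟩
  obtain ⟨x, hx⟩ := hne
  have hj₀ : x * (σ x)⁻¹ ∈ J := Finset.mem_image.mpr ⟨x, Finset.mem_univ _, rfl⟩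
  have hj₀ne : x * (σ x)⁻¹ ≠ 1 := by
    intro h
    exact hx (mul_inv_eq_one.mp h).symm
  have hJ2 : 2 ≤ J.card := by
    have : ({1, x * (σ x)⁻¹} : Finset N) ⊆ J := by
      intro y hy
      simp only [Finset.mem_insert, Finset.mem_singleton] at hy
      rcases hy with rfl | rfl
      · exact hone
      · exact hj₀
    have h3 := Finset.card_le_card this
    rwa [Finset.card_pair (Ne.symm hj₀ne)] at h3
  -- pigeonhole
  set T : Finset (N × N) := J.offDiag with hT
  set t : Finset N := Finset.univ.erase 1 with ht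
  have htne : t.Nonempty := ⟨_, Finset.mem_erase.mpr ⟨hj₀ne, Finset.mem_univ _⟩⟩
  let f : N × N → N := fun q => q.1 * q.2⁻¹
  obtain ⟨g, hg, hgmax⟩ := Finset.exists_max_image t (fun g => (T.filter (fun q => f q = g)).card) htne
  have hg1 : g ≠ 1 := (Finset.mem_erase.mp hg).1
  have hTle : T.card ≤ (T.filter (fun q => f q = g)).card * t.card := by
    refine Finset.card_le_mul_card_image_of_maps_to (f := f) ?_ _ ?_
    · intro q hq
      refine Finset.mem_erase.mpr ⟨?_, Finset.mem_univ _⟩
      have := Finset.mem_offDiag.mp hq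
      intro h
      exact this.2.2 (mul_inv_eq_one.mp h)
    · intro b hb
      exact hgmax b hb
  -- the fibre is small
  have hfib : (T.filter (fun q => f q = g)).card ≤ Nat.card (Subgroup.centralizer ({g} : Set N)) := by
    have hinj : (T.filter (fun q => f q = g)).card =
        ((T.filter (fun q => f q = g)).image Prod.fst).card := by
      symm
      apply Finset.card_image_of_injOn
      intro q hq q' hq' e
      have h1 : f q = g := (Finset.mem_filter.mp hq).2
      have h2 : f q' = g := (Finset.mem_filter.mp hq').2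
      have e' : q.1 = q'.1 := e
      apply Prod.ext e'
      have h3 : q.1 * q.2⁻¹ = q'.1 * q'.2⁻¹ := h1.trans h2.symm
      rw [e'] at h3
      exact inv_injective (mul_left_cancel h3)
    rw [hinj]
    apply card_le_of_right_quot
    intro a ha b hb
    obtain ⟨q, hq, rfl⟩ := Finset.mem_image.mp ha
    obtain ⟨q', hq', rfl⟩ := Finset.mem_image.mp hb
    obtain ⟨hqT, hqg⟩ := Finset.mem_filter.mp hq
    obtain ⟨hqT', hqg'⟩ := Finset.mem_filter.mp hq'
    obtain ⟨h1, h2, -⟩ := Finset.mem_offDiag.mp hqT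
    obtain ⟨h1', h2', -⟩ := Finset.mem_offDiag.mp hqT'
    have key : ∀ u v : N, u ∈ J → v ∈ J → u * v⁻¹ = g → σ g = u⁻¹ * g⁻¹ * u := by
      intro u v hu hv e
      rw [← e]
      simp only [map_mul, map_inv, hJmem u hu, hJmem v hv]
      group
    have e1 := key _ _ h1 h2 hqg
    have e2 := key _ _ h1' h2' hqg'
    have e3 : q.1⁻¹ * g⁻¹ * q.1 = q'.1⁻¹ * g⁻¹ * q'.1 := e1.symm.trans e2
    rw [Subgroup.mem_centralizer_singleton_iff]
    have e4 : q.1⁻¹ * g * q.1 = q'.1⁻¹ * g * q'.1 := by
      have := congrArg (·⁻¹) e3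
      simpa [mul_assoc] using this
    have e5 : g = q.1 * (q'.1⁻¹ * g * q'.1) * q.1⁻¹ := by
      rw [← e4]; group
    calc q.1 * q'.1⁻¹ * g = q.1 * q'.1⁻¹ * g * q'.1 * q.1⁻¹ * (q.1 * q'.1⁻¹) := by group
      _ = (q.1 * (q'.1⁻¹ * g * q'.1) * q.1⁻¹) * (q.1 * q'.1⁻¹) := by group
      _ = g * (q.1 * q'.1⁻¹) := by rw [← e5]
  refine ⟨g, hg1, ?_⟩
  rw [Nat.card_eq_fintype_card]
  have htc : t.card ≤ Fintype.card N := by
    rw [← Finset.card_univ]
    exact Finset.card_le_card (Finset.erase_subset _ _)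
  have hTc : T.card = J.card * J.card - J.card := by
    rw [hT, Finset.offDiag_card]
  set n := Fintype.card N
  set j := J.card
  set A := (T.filter (fun q => f q = g)).card
  set C := Nat.card (Subgroup.centralizer ({g} : Set N))
  have hnpos : 0 < n := Fintype.card_pos
  -- arithmetic
  have h5 : j * j ≤ 2 * (A * n) := by
    have h6 : j * j - j ≤ A * n := by
      rw [← hTc]
      exact hTle.trans (Nat.mul_le_mul_left _ htc)
    have h7 : 2 * j ≤ j * j := Nat.mul_le_mul_right _ hJ2
    omega
  have h8 : n * n ≤ c ^ 2 * (2 * (A * n)) := by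
    calc n * n ≤ (c * j) * (c * j) := Nat.mul_le_mul h1 h1
      _ = c ^ 2 * (j * j) := by ring
      _ ≤ _ := Nat.mul_le_mul_left _ h5
  have h9 : n ≤ 2 * c ^ 2 * A := by
    have : n * n ≤ (2 * c ^ 2 * A) * n := by
      calc n * n ≤ _ := h8
        _ = _ := by ring
    exact Nat.le_of_mul_le_mul_right this hnpos
  exact h9.trans (Nat.mul_le_mul_left _ hfib)

end BF

section Power

variable {N : Type u} [Group N] [Finite N]

/-- **Every normal subgroup of a `Γ`-minimal group has order a power of `s`.** -/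
theorem card_normal_eq_pow (Γ : Subgroup (MulAut N))
    (hmin : ∀ D : Subgroup N, D.Normal → (∀ α ∈ Γ, D.map (α : N ≃* N).toMonoidHom ≤ D) → D = ⊥ ∨ D = ⊤)
    (N₂ : Subgroup N) (hN₂ : N₂.Normal) (hne : N₂ ≠ ⊤)
    (hmax : ∀ K : Subgroup N, K.Normal → N₂ ≤ K → K = N₂ ∨ K = ⊤) :
    ∀ D : Subgroup N, D.Normal → ∃ k, Nat.card D = N₂.index ^ k := by
  classical
  -- `Γ`-conjugates of `N₂` meet trivially
  set I : Subgroup N := ⨅ α : Γ, N₂.map ((α : MulAut N) : N ≃* N).toMonoidHom with hI
  have hImem : ∀ x, x ∈ I ↔ ∀ α : Γ, x ∈ N₂.map ((α : MulAut N) : N ≃* N).toMonoidHom := by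
    intro x
    rw [hI, Subgroup.mem_iInf]
  have hInorm : I.Normal := by
    refine ⟨fun x hx g => ?_⟩
    rw [hImem] at hx ⊢
    intro α
    have := hx α
    exact (hN₂.map _ ((α : MulAut N) : N ≃* N).surjective).conj_mem _ this g
  have hIinv : ∀ β ∈ Γ, I.map (β : N ≃* N).toMonoidHom ≤ I := by
    rintro β hβ _ ⟨x, hx, rfl⟩
    rw [hImem]
    intro α
    have hx' := (hImem x).mp hx ⟨β⁻¹ * α, Γ.mul_mem (Γ.inv_mem hβ) α.2⟩
    obtain ⟨y, hy, hyx⟩ := hx'
    refine ⟨y, hy, ?_⟩
    simp only [MulEquiv.coe_toMonoidHom] at hyx ⊢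
    rw [← hyx]
    show (α : MulAut N) y = β ((β⁻¹ * (α : MulAut N)) y)
    rw [MulAut.mul_apply]
    show (α : MulAut N) y = β (β.symm ((α : MulAut N) y))
    simp
  have hIbot : I = ⊥ := by
    rcases hmin I hInorm hIinv with h | h
    · exact h
    · exfalso
      apply hne
      rw [eq_top_iff, ← h]
      intro x hx
      have := (hImem x).mp hx ⟨1, Γ.one_mem⟩
      obtain ⟨y, hy, hyx⟩ := this
      have : y = x := hyx
      rwa [← this]
  have hstep : ∀ D : Subgroup N, D ≠ ⊥ → ∃ α : Γ, ¬ D ≤ N₂.map ((α : MulAut N) : N ≃* N).toMonoidHom := by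
    intro D hD
    by_contra h
    push Not at h
    apply hD
    rw [eq_bot_iff, ← hIbot]
    intro x hx
    rw [hImem]
    exact fun α => h α hx
  -- induction on the order
  have main : ∀ m : ℕ, ∀ D : Subgroup N, Nat.card D = m → D.Normal → ∃ k, Nat.card D = N₂.index ^ k := by
    intro m
    induction m using Nat.strong_induction_on with
    | _ m ih =>
      intro D hDm hD
      by_cases hbot : D = ⊥
      · exact ⟨0, by simp [hbot]⟩
      obtain ⟨α, hα⟩ := hstep D hbot
      set N₃ := N₂.map ((α : MulAut N) : N ≃* N).toMonoidHom with hN₃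
      haveI hN₃n : N₃.Normal := hN₂.map _ ((α : MulAut N) : N ≃* N).surjective
      -- `N₃` is maximal normal
      have hsup : D ⊔ N₃ = ⊤ := by
        set e := ((α : MulAut N) : N ≃* N) with he
        have hsn : (D ⊔ N₃).Normal := by
          haveI := hD
          infer_instance
        have hK : ((D ⊔ N₃).comap e.toMonoidHom).Normal := hsn.comap _
        have hN₂K : N₂ ≤ (D ⊔ N₃).comap e.toMonoidHom := by
          intro x hx
          exact (le_sup_right : N₃ ≤ D ⊔ N₃) ⟨x, hx, rfl⟩
        rcases hmax _ hK hN₂K with h | h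
        · exfalso
          apply hα
          intro d hd
          have h1 : e.symm d ∈ (D ⊔ N₃).comap e.toMonoidHom := by
            show e (e.symm d) ∈ D ⊔ N₃
            rw [MulEquiv.apply_symm_apply]
            exact (le_sup_left : D ≤ D ⊔ N₃) hd
          rw [h] at h1
          exact ⟨_, h1, e.apply_symm_apply d⟩
        · rw [eq_top_iff]
          intro x _
          have h1 : e.symm x ∈ (D ⊔ N₃).comap e.toMonoidHom := by rw [h]; trivial
          have h2 : e (e.symm x) ∈ D ⊔ N₃ := h1
          rwa [MulEquiv.apply_symm_apply] at h2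
      have hidx : N₃.index = N₂.index := by
        rw [hN₃]
        exact Subgroup.index_map_of_bijective ((α : MulAut N) : N ≃* N).bijective N₂
      have hcard : Nat.card (N₃ ⊓ D : Subgroup N) * N₂.index = Nat.card D := by
        have h1 := Subgroup.relIndex_mul_relIndex (⊥ : Subgroup N) (N₃ ⊓ D) D bot_le inf_le_right
        rw [Subgroup.relIndex_bot_left, Subgroup.relIndex_bot_left,
          Subgroup.inf_relIndex_right] at h1
        have h2 : N₃.relIndex D = N₃.index := by
          rw [← Subgroup.relIndex_sup_right (K := N₃) (H := D), hsup, Subgroup.relIndex_top_right]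
        rw [h2, hidx] at h1
        exact h1
      have hs2 : 2 ≤ N₂.index := by
        have h0 : N₂.index ≠ 0 := Subgroup.index_ne_zero_of_finite
        have h1 : N₂.index ≠ 1 := fun h => hne (Subgroup.index_eq_one.mp h)
        omega
      have hpos : 0 < Nat.card (N₃ ⊓ D : Subgroup N) := Nat.card_pos
      have hlt : Nat.card (N₃ ⊓ D : Subgroup N) < m := by
        rw [← hDm, ← hcard]
        nlinarith
      haveI := hD
      obtain ⟨k, hk⟩ := ih _ hlt (N₃ ⊓ D) rfl (by infer_instance)
      exact ⟨k + 1, by rw [← hcard, hk, pow_succ]⟩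
  exact fun D hD => main _ D rfl hD

/-- A `Γ`-minimal group of even order with a proper subgroup of index `i`, whose order has `2`-part
at most `2 ^ n`, has order at most `(i !) ^ n`. -/
theorem card_le_of_proper_subgroup (Γ : Subgroup (MulAut N))
    (hmin : ∀ D : Subgroup N, D.Normal → (∀ α ∈ Γ, D.map (α : N ≃* N).toMonoidHom ≤ D) → D = ⊥ ∨ D = ⊤)
    (L : Subgroup N) (hL : L ≠ ⊤) (h2 : 2 ∣ Nat.card N) (n : ℕ)
    (hn : ∀ k, 2 ^ k ∣ Nat.card N → k ≤ n) :
    Nat.card N ≤ (L.index.factorial) ^ n := by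
  classical
  set C₀ : Subgroup N := L.normalCore with hC₀
  haveI hC₀n : C₀.Normal := Subgroup.normalCore_normal L
  have hC₀ne : C₀ ≠ ⊤ := by
    intro h
    apply hL
    rw [eq_top_iff, ← h]
    exact Subgroup.normalCore_le L
  -- maximal proper normal subgroup above the core
  have hfin : ({K : Subgroup N | K.Normal ∧ K ≠ ⊤}).Finite := Set.toFinite _
  obtain ⟨N₂, hle, hN₂max⟩ := hfin.exists_le_maximal (a := C₀) ⟨hC₀n, hC₀ne⟩
  obtain ⟨hN₂n, hN₂ne⟩ := hN₂max.prop
  have hmax : ∀ K : Subgroup N, K.Normal → N₂ ≤ K → K = N₂ ∨ K = ⊤ := by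
    intro K hK hle'
    by_cases hKt : K = ⊤
    · exact Or.inr hKt
    · left
      exact le_antisymm (hN₂max.le_of_ge ⟨hK, hKt⟩ hle') hle'
  obtain ⟨k, hk⟩ := card_normal_eq_pow Γ hmin N₂ hN₂n hN₂ne hmax ⊤ inferInstance
  rw [Subgroup.card_top] at hk
  set s := N₂.index with hs
  have hs0 : 0 < s := Nat.pos_of_ne_zero Subgroup.index_ne_zero_of_finite
  -- `s ≤ [N : core] ≤ i!`
  have hscore : s ≤ L.index.factorial := by
    have h1 : s ∣ C₀.index := Subgroup.index_dvd_of_le hle
    have h2' : C₀.index ≤ L.index.factorial := by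
      rw [hC₀, Subgroup.normalCore_eq_ker, Subgroup.index_ker]
      have h3 : Nat.card (MulAction.toPermHom N (N ⧸ L)).range ≤ Nat.card (Equiv.Perm (N ⧸ L)) := by
        rw [← Subgroup.card_top (G := Equiv.Perm (N ⧸ L))]
        exact Subgroup.card_le_of_le le_top
      refine h3.trans ?_
      rw [Subgroup.index]
      rw [Nat.card_perm]
    exact (Nat.le_of_dvd (Nat.pos_of_ne_zero Subgroup.index_ne_zero_of_finite) h1).trans h2'
  -- `k ≤ n`
  have hk0 : k ≠ 0 := by
    intro h
    rw [h, pow_zero] at hk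
    rw [hk] at h2
    omega
  have h2s : 2 ∣ s := by
    rw [hk] at h2
    exact Nat.prime_two.dvd_of_dvd_pow h2
  have hkn : k ≤ n := by
    apply hn
    rw [hk]
    exact pow_dvd_pow_of_dvd h2s k
  rw [hk]
  calc s ^ k ≤ s ^ n := Nat.pow_le_pow_right hs0 hkn
    _ ≤ _ := Nat.pow_le_pow_left hscore n

end Power

end Cfsg.Agent.Lib.Blk89.InvAut
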