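import Mathlib
import Cfsg.Agent.Lib.Blk89.InvAut

/-!
# Quotients by central `2`-subgroups and automorphisms

* `card_fixS_quot_le`: fixed points do not increase in a quotient by a normal invariant subgroup.
* `pPrimeCore_quot_central`: `O(K / Z) = 1` for `Z` a central `2`-subgroup and `O(K) = 1`.
* `isPGroup_of_comm_normal`: an abelian normal subgroup of a group with `O(X) = 1` is a `2`-group.
-/

set_option autoImplicit false
set_option linter.style.haveILetI false

namespace Cfsg.Agent.Lib.Blk89.InvQuot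

open Cfsg Cfsg.Agent.Lib.Blk89.InvAut Cfsg.Agent.Lib.Core.Basic

universe u

variable {K : Type u} [Group K] [Finite K]

/-- The automorphism induced on a quotient by an invariant normal subgroup. -/
noncomputable abbrev quotAut (τ : K ≃* K) (Z : Subgroup K) [Z.Normal]
    (h : Z.map τ.toMonoidHom = Z) : (K ⧸ Z) ≃* (K ⧸ Z) :=
  QuotientGroup.congr Z Z τ h

theorem quotAut_mk (τ : K ≃* K) (Z : Subgroup K) [Z.Normal]
    (h : Z.map τ.toMonoidHom = Z) (x : K) :
    quotAut τ Z h (x : K ⧸ Z) = ((τ x : K) : K ⧸ Z) := rfl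

/-- **Fixed points of the quotient automorphism.** -/
theorem card_fixS_quot_le (τ : K ≃* K) (Z : Subgroup K) [Z.Normal]
    (h : Z.map τ.toMonoidHom = Z) :
    Nat.card (fixS (quotAut τ Z h)) ≤ Nat.card (fixS τ) := by
  classical
  letI := Fintype.ofFinite K
  set Fb := fixS (quotAut τ Z h) with hFb
  set A : Subgroup K := Fb.comap (QuotientGroup.mk' Z) with hA
  -- `|A| = |F̄| |Z|`
  have hcardA : Nat.card A = Nat.card Fb * Nat.card Z := by
    have h1 := Subgroup.card_mul_index A
    have h2 := Subgroup.card_mul_index Fb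
    have h3 : A.index = Fb.index :=
      Subgroup.index_comap_of_surjective _ (QuotientGroup.mk'_surjective Z)
    have h4 := Subgroup.card_eq_card_quotient_mul_card_subgroup Z
    have hpos : 0 < Fb.index := Nat.pos_of_ne_zero Subgroup.index_ne_zero_of_finite
    rw [h3] at h1
    have h5 : Nat.card A * Fb.index = (Nat.card Fb * Nat.card Z) * Fb.index := by
      rw [h1, h4, ← h2]
      ring
    exact Nat.eq_of_mul_eq_mul_right hpos h5
  -- `|A| ≤ |Fix τ| |Z|`
  have hmem : ∀ x ∈ A, x⁻¹ * τ x ∈ Z := by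
    intro x hx
    have h1 : quotAut τ Z h (x : K ⧸ Z) = (x : K ⧸ Z) := hx
    rw [quotAut_mk] at h1
    exact QuotientGroup.eq.mp h1.symm
  set SA : Finset K := Finset.univ.filter (fun x => x ∈ A) with hSA
  have hcardSA : SA.card = Nat.card A := by
    rw [Nat.card_eq_fintype_card, Fintype.card_subtype]
  have hle : SA.card ≤ Nat.card (fixS τ) * (Finset.univ.filter (fun z : K => z ∈ Z)).card := by
    refine Finset.card_le_mul_card_image_of_maps_to (f := fun x => x⁻¹ * τ x) ?_ _ ?_
    · intro x hx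
      have hx' : x ∈ A := (Finset.mem_filter.mp hx).2
      exact Finset.mem_filter.mpr ⟨Finset.mem_univ _, hmem x hx'⟩
    · intro b _
      refine card_le_of_right_quot _ _ ?_
      intro x hx y hy
      obtain ⟨-, hxb⟩ := Finset.mem_filter.mp hx
      obtain ⟨-, hyb⟩ := Finset.mem_filter.mp hy
      rw [mem_fixS, map_mul, map_inv]
      have e : x⁻¹ * τ x = y⁻¹ * τ y := hxb.trans hyb.symm
      calc τ x * (τ y)⁻¹ = x * (x⁻¹ * τ x) * (τ y)⁻¹ := by group
        _ = x * (y⁻¹ * τ y) * (τ y)⁻¹ := by rw [e]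
        _ = x * y⁻¹ := by group
  have hcardZ : (Finset.univ.filter (fun z : K => z ∈ Z)).card = Nat.card Z := by
    rw [Nat.card_eq_fintype_card, Fintype.card_subtype]
  rw [hcardSA, hcardZ, hcardA] at hle
  exact Nat.le_of_mul_le_mul_right hle Nat.card_pos

/-- **`O(K / Z) = 1` for `Z` a central `2`-subgroup.** -/
theorem pPrimeCore_quot_central (hO : pPrimeCore 2 K = ⊥) (Z : Subgroup K) [Z.Normal]
    (hZc : ∀ z ∈ Z, ∀ g : K, z * g = g * z) (hZ2 : IsPGroup 2 Z) :
    pPrimeCore 2 (K ⧸ Z) = ⊥ := by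
  classical
  set Wb := pPrimeCore 2 (K ⧸ Z) with hWb
  have hodd : (Nat.card Wb).Coprime 2 := pPrimeCore_coprime
  haveI hWbn : Wb.Normal := Subgroup.normal_of_characteristic _
  set W : Subgroup K := Wb.comap (QuotientGroup.mk' Z) with hW
  haveI hWn : W.Normal := hWbn.comap _
  set A : Subgroup W := Z.subgroupOf W with hA
  haveI : A.Normal := inferInstance
  have hZW : Z ≤ W := by
    intro z hz
    show ((z : K) : K ⧸ Z) ∈ Wb
    rw [(QuotientGroup.eq_one_iff z).mpr hz]
    exact Wb.one_mem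
  have hidx : A.index = Nat.card Wb := by
    have h1 : Z.relIndex W = Nat.card (W.map (QuotientGroup.mk' Z)) := by
      have := Subgroup.relIndex_ker (f := QuotientGroup.mk' Z) W
      rwa [QuotientGroup.ker_mk'] at this
    rw [Subgroup.map_comap_eq_self_of_surjective (QuotientGroup.mk'_surjective Z)] at h1
    exact h1
  haveI : Fact (Nat.Prime 2) := ⟨Nat.prime_two⟩
  have hA2 : IsPGroup 2 A := IsPGroup.comap_subtype hZ2
  obtain ⟨j, hj⟩ := IsPGroup.iff_card.mp hA2
  have hcop : Nat.Coprime (Nat.card A) A.index := by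
    rw [hj, hidx]
    exact Nat.Coprime.pow_left _ hodd.symm
  obtain ⟨H, hH⟩ := Subgroup.exists_right_complement'_of_coprime hcop
  have hHc : Nat.card H = Nat.card Wb := by
    rw [← hidx]
    exact hH.symm.index_eq_card.symm
  set m := Nat.card Wb with hm
  set W' : Subgroup K := H.map W.subtype with hW'
  have hchar : ∀ x : K, x ∈ W' ↔ x ∈ W ∧ x ^ m = 1 := by
    intro x
    constructor
    · rintro ⟨h, hh, rfl⟩
      refine ⟨h.2, ?_⟩
      have h1 : ((⟨h, hh⟩ : H) : W) ^ Nat.card H = 1 := by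
        have := pow_card_eq_one' (x := (⟨h, hh⟩ : H))
        exact_mod_cast congrArg Subtype.val this
      rw [hHc] at h1
      have h2 := congrArg W.subtype h1
      simpa using h2
    · rintro ⟨hx, hxm⟩
      obtain ⟨⟨a, h⟩, e⟩ := hH.2 ⟨x, hx⟩
      have e' : (a : W) * (h : W) = ⟨x, hx⟩ := e
      have e2 : (((a : W) : K)) * (((h : W)) : K) = x := by
        have := congrArg Subtype.val e'
        simpa using this
      have haZ : ((a : W) : K) ∈ Z := a.2
      have hhm : (((h : W)) : K) ^ m = 1 := by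
        have h1 : (h : W) ^ Nat.card H = 1 := by
          have := pow_card_eq_one' (x := h)
          exact_mod_cast congrArg Subtype.val this
        rw [hHc] at h1
        exact_mod_cast congrArg Subtype.val h1
      have hcomm : Commute (((a : W) : K)) (((h : W)) : K) := hZc _ haZ _
      have h3 : ((a : W) : K) ^ m = 1 := by
        have := hxm
        rw [← e2, hcomm.mul_pow, hhm, mul_one] at this
        exact this
      obtain ⟨k, hk⟩ := hZ2 ⟨_, haZ⟩
      have hk' : ((a : W) : K) ^ (2 ^ k) = 1 := by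
        have := congrArg Subtype.val hk
        simpa using this
      have hd1 := orderOf_dvd_of_pow_eq_one h3
      have hd2 := orderOf_dvd_of_pow_eq_one hk'
      have hcop2 : Nat.Coprime m (2 ^ k) := Nat.Coprime.pow_right _ hodd
      have h4 : orderOf ((a : W) : K) = 1 := Nat.Coprime.eq_one_of_dvd
        (Nat.Coprime.coprime_dvd_left hd1 hcop2) hd2
      rw [orderOf_eq_one_iff] at h4
      rw [h4, one_mul] at e2
      exact ⟨(h : W), h.2, e2⟩
  have hW'n : W'.Normal := by
    refine ⟨fun x hx g => ?_⟩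
    rw [hchar] at hx ⊢
    refine ⟨hWn.conj_mem x hx.1 g, ?_⟩
    rw [conj_pow, hx.2, mul_one, mul_inv_cancel]
  have hcW' : Nat.card W' = m := by
    rw [hW', ← hHc]
    exact Subgroup.card_map_of_injective W.subtype_injective
  have hle : W' ≤ pPrimeCore 2 K := le_pPrimeCore hW'n (by rw [hcW']; exact hodd)
  rw [hO, le_bot_iff] at hle
  have hm1 : m = 1 := by
    rw [← hcW', hle]
    simp
  exact Subgroup.card_eq_one.mp hm1

/-- **An abelian normal subgroup of a group with `O(X) = 1` is a `2`-group.** -/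
theorem isPGroup_of_comm_normal (hO : pPrimeCore 2 K = ⊥) (A : Subgroup K) (hA : A.Normal)
    (hcomm : ∀ a ∈ A, ∀ b ∈ A, a * b = b * a) : IsPGroup 2 A := by
  classical
  haveI : Fact (Nat.Prime 2) := ⟨Nat.prime_two⟩
  let U : Subgroup K :=
    { carrier := {x | x ∈ A ∧ Odd (orderOf x)}
      mul_mem' := by
        rintro a b ⟨ha, hao⟩ ⟨hb, hbo⟩
        refine ⟨A.mul_mem ha hb, ?_⟩
        have hc : Commute a b := hcomm a ha b hb
        have h1 : orderOf (a * b) ∣ orderOf a * orderOf b := hc.orderOf_mul_dvd_mul_orderOf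
        exact Odd.of_dvd_nat (hao.mul hbo) h1
      one_mem' := ⟨A.one_mem, by simp⟩
      inv_mem' := by
        rintro a ⟨ha, hao⟩
        exact ⟨A.inv_mem ha, by rwa [orderOf_inv]⟩ }
  have hUmem : ∀ x, x ∈ U ↔ x ∈ A ∧ Odd (orderOf x) := fun x => Iff.rfl
  have hUn : U.Normal := by
    refine ⟨fun x hx g => ?_⟩
    rw [hUmem] at hx ⊢
    refine ⟨hA.conj_mem x hx.1 g, ?_⟩
    have : orderOf (g * x * g⁻¹) = orderOf x :=
      orderOf_injective (MulAut.conj g).toMonoidHom (MulEquiv.injective _) x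
    rw [this]
    exact hx.2
  have hUc : (Nat.card U).Coprime 2 := by
    rw [coprime_card_iff_forall_orderOf]
    intro x hx
    exact Nat.coprime_two_right.mpr ((hUmem x).mp hx).2
  have hUbot : U = ⊥ := by
    have := le_pPrimeCore hUn hUc
    rwa [hO, le_bot_iff] at this
  intro x
  obtain ⟨e, m, hm, hem⟩ := Nat.exists_eq_two_pow_mul_odd (n := orderOf (x : K))
    (orderOf_pos (x : K)).ne'
  refine ⟨e, ?_⟩
  have h1 : ((x : K) ^ 2 ^ e) ^ m = 1 := by
    rw [← pow_mul, ← hem, pow_orderOf_eq_one]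
  have h2 : Odd (orderOf ((x : K) ^ 2 ^ e)) := Odd.of_dvd_nat hm (orderOf_dvd_of_pow_eq_one h1)
  have h3 : (x : K) ^ 2 ^ e ∈ U := ⟨A.pow_mem x.2 _, h2⟩
  rw [hUbot, Subgroup.mem_bot] at h3
  exact Subtype.ext (by simpa using h3)

end Cfsg.Agent.Lib.Blk89.InvQuot
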