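import Mathlib
import Cfsg.Agent.Lib.Blk89.InvAut
import Cfsg.Agent.Lib.Blk89.InvQuot

/-!
# Groups with an involutory automorphism having few fixed points

`lemmaC`: if `σ` is an automorphism of `X` with `σ² = 1`, `|Fix σ| ≤ c`, `O(X) = 1` and `|X|₂ ≤ 2 ^ n`,
then `|X|` is bounded in terms of `c` and `n`.
-/

set_option autoImplicit false
set_option linter.style.haveILetI false
set_option linter.unusedSectionVars false

namespace Cfsg.Agent.Lib.Blk89.InvBound

open Cfsg Cfsg.Agent.Lib.Blk89.InvAut Cfsg.Agent.Lib.Blk89.InvQuot Cfsg.Agent.Lib.Core.Basic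

universe u

variable {X : Type u} [Group X]

/-- Restriction of an involutory automorphism to an invariant subgroup. -/
def resAut (σ : X ≃* X) (hσ : ∀ x, σ (σ x) = x) (H : Subgroup X) (hH : ∀ x ∈ H, σ x ∈ H) :
    H ≃* H where
  toFun x := ⟨σ x, hH x x.2⟩
  invFun x := ⟨σ x, hH x x.2⟩
  left_inv x := Subtype.ext (hσ x)
  right_inv x := Subtype.ext (hσ x)
  map_mul' x y := Subtype.ext (map_mul σ (x : X) (y : X))

@[simp] theorem resAut_coe (σ : X ≃* X) (hσ : ∀ x, σ (σ x) = x) (H : Subgroup X)
    (hH : ∀ x ∈ H, σ x ∈ H) (x : H) : ((resAut σ hσ H hH x : H) : X) = σ x := rfl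

variable [Finite X]

theorem card_fixS_res_le (σ : X ≃* X) (hσ : ∀ x, σ (σ x) = x) (H : Subgroup X)
    (hH : ∀ x ∈ H, σ x ∈ H) : Nat.card (fixS (resAut σ hσ H hH)) ≤ Nat.card (fixS σ) := by
  refine Nat.card_le_card_of_injective
    (fun x => (⟨((x : H) : X), congrArg Subtype.val x.2⟩ : fixS σ)) ?_
  intro x y h
  have := congrArg Subtype.val h
  exact Subtype.ext (Subtype.ext this)

/-- The kernel of conjugation on a normal subgroup. -/
theorem mem_ker_conjNormal (N : Subgroup X) [N.Normal] (x : X) :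
    x ∈ (MulAut.conjNormal (H := N)).ker ↔ ∀ n ∈ N, x * n * x⁻¹ = n := by
  rw [MonoidHom.mem_ker]
  constructor
  · intro h n hn
    have h1 : (MulAut.conjNormal x) (⟨n, hn⟩ : N) = ⟨n, hn⟩ := by rw [h]; rfl
    have h2 := congrArg Subtype.val h1
    rwa [MulAut.conjNormal_apply] at h2
  · intro h
    ext n
    rw [MulAut.conjNormal_apply]
    exact h n n.2

/-- **Bound for a minimal invariant normal subgroup.** -/
theorem card_min_normal_le (σ : X ≃* X) (hσ : ∀ x, σ (σ x) = x) {c : ℕ}
    (hc : Nat.card (fixS σ) ≤ c) (hO : pPrimeCore 2 X = ⊥) {n : ℕ}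
    (hn : ∀ k, 2 ^ k ∣ Nat.card X → k ≤ n) (N : Subgroup X) [hNn : N.Normal]
    (hNσ : ∀ x ∈ N, σ x ∈ N) (hNne : N ≠ ⊥)
    (hmin : ∀ K : Subgroup X, K ≠ ⊥ → K.Normal → (∀ x ∈ K, σ x ∈ K) → K ≤ N → K = N) :
    Nat.card N ≤ 2 ^ n + c + (Nat.factorial (2 * c ^ 2)) ^ n := by
  classical
  haveI : Fact (Nat.Prime 2) := ⟨Nat.prime_two⟩
  have hcN : ∀ k, 2 ^ k ∣ Nat.card N → k ≤ n := fun k hk =>
    hn k (hk.trans (Subgroup.card_subgroup_dvd_card N))
  have h2 : 2 ∣ Nat.card N := by
    by_contra h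
    have h1 : (Nat.card N).Coprime 2 := by
      rw [Nat.coprime_comm, Nat.Prime.coprime_iff_not_dvd Nat.prime_two]
      exact h
    have h3 := le_pPrimeCore hNn h1
    rw [hO, le_bot_iff] at h3
    exact hNne h3
  set C : Subgroup X := (MulAut.conjNormal (H := N)).ker with hC
  haveI hCn : C.Normal := MonoidHom.normal_ker _
  have hCmem : ∀ x, x ∈ C ↔ ∀ n ∈ N, x * n * x⁻¹ = n := mem_ker_conjNormal N
  have hCσ : ∀ x ∈ C, σ x ∈ C := by
    intro x hx
    rw [hCmem] at hx ⊢
    intro m hm
    have := hx (σ m) (hNσ m hm)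
    have h3 := congrArg σ this
    simpa [hσ] using h3
  set Zn : Subgroup X := N ⊓ C with hZn
  have hZnn : Zn.Normal := by
    haveI := hNn
    haveI := hCn
    infer_instance
  rcases eq_or_ne Zn ⊥ with hbot | hbot
  · -- centerless case
    set σN := resAut σ hσ N hNσ with hσN
    by_cases htriv : ∀ x : N, σN x = x
    · have : Nat.card N ≤ Nat.card (fixS σ) := by
        refine Nat.card_le_card_of_injective
          (fun x => (⟨(x : X), congrArg Subtype.val (htriv x)⟩ : fixS σ)) ?_
        intro x y h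
        have h' := congrArg Subtype.val h
        exact Subtype.ext h'
      exact (this.trans hc).trans (le_trans (Nat.le_add_left _ _) (Nat.le_add_right _ _))
    · push Not at htriv
      have hfix : Nat.card (fixS σN) ≤ c := (card_fixS_res_le σ hσ N hNσ).trans hc
      obtain ⟨g, hg1, hg⟩ := exists_large_centralizer_of_aut σN (fun x => Subtype.ext (hσ x)) hfix htriv
      set L : Subgroup N := Subgroup.centralizer ({g} : Set N) with hL
      have hLtop : L ≠ ⊤ := by
        intro h
        apply hg1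
        have h1 : (g : X) ∈ Zn := by
          refine ⟨g.2, (hCmem _).mpr ?_⟩
          intro m hm
          have h3 : (⟨m, hm⟩ : N) ∈ L := by rw [h]; trivial
          rw [hL, Subgroup.mem_centralizer_singleton_iff] at h3
          have h4 := congrArg Subtype.val h3
          simp only [Subgroup.coe_mul] at h4
          rw [← h4]
          group
        rw [hbot, Subgroup.mem_bot] at h1
        exact Subtype.ext h1
      have hidx : L.index ≤ 2 * c ^ 2 := by
        have h1 := Subgroup.card_mul_index L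
        have hpos : 0 < Nat.card L := Nat.card_pos
        rw [← h1, mul_comm] at hg
        exact Nat.le_of_mul_le_mul_right hg hpos
      let Γ : Subgroup (MulAut N) :=
        Subgroup.closure (Set.range (MulAut.conjNormal (H := N)) ∪ {σN})
      have hΓ1 : ∀ g : X, MulAut.conjNormal (H := N) g ∈ Γ := fun g =>
        Subgroup.subset_closure (Or.inl ⟨g, rfl⟩)
      have hΓ2 : σN ∈ Γ := Subgroup.subset_closure (Or.inr rfl)
      have hmin' : ∀ D : Subgroup N, D.Normal →
          (∀ α ∈ Γ, D.map (α : N ≃* N).toMonoidHom ≤ D) → D = ⊥ ∨ D = ⊤ := by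
        intro D _ hD
        by_cases hDb : D = ⊥
        · exact Or.inl hDb
        right
        have hD'ne : D.map N.subtype ≠ ⊥ := by
          intro h
          apply hDb
          exact (Subgroup.map_eq_bot_iff_of_injective D N.subtype_injective).mp h
        have hD'n : (D.map N.subtype).Normal := by
          refine ⟨?_⟩
          rintro _ ⟨d, hd, rfl⟩ g
          have h3 : (MulAut.conjNormal (H := N) g) d ∈ D :=
            hD _ (hΓ1 g) ⟨d, hd, rfl⟩
          refine ⟨_, h3, ?_⟩
          simp [MulAut.conjNormal_apply]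
        have hD'σ : ∀ x ∈ D.map N.subtype, σ x ∈ D.map N.subtype := by
          rintro _ ⟨d, hd, rfl⟩
          have h3 : σN d ∈ D := hD _ hΓ2 ⟨d, hd, rfl⟩
          exact ⟨_, h3, rfl⟩
        have hD'le : D.map N.subtype ≤ N := by
          rintro _ ⟨d, -, rfl⟩
          exact d.2
        have he := hmin _ hD'ne hD'n hD'σ hD'le
        rw [eq_top_iff]
        intro x _
        have h3 : (x : X) ∈ D.map N.subtype := by rw [he]; exact x.2
        obtain ⟨d, hd, hdx⟩ := h3
        have : d = x := Subtype.ext hdx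
        rwa [← this]
      have h5 := card_le_of_proper_subgroup Γ hmin' L hLtop h2 n hcN
      have h6 : L.index.factorial ≤ Nat.factorial (2 * c ^ 2) := Nat.factorial_le hidx
      have h7 := Nat.pow_le_pow_left h6 n
      exact h5.trans (h7.trans (Nat.le_add_left _ _))
  · -- abelian case
    have hZeq : Zn = N := hmin Zn hbot hZnn (fun x hx => ⟨hNσ x hx.1, hCσ x hx.2⟩) inf_le_left
    have hcomm : ∀ a ∈ N, ∀ b ∈ N, a * b = b * a := by
      intro a ha b hb
      have h1 : a ∈ Zn := by rw [hZeq]; exact ha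
      have h3 := ((hCmem a).mp h1.2) b hb
      exact mul_inv_eq_iff_eq_mul.mp h3
    have hp : IsPGroup 2 N := isPGroup_of_comm_normal hO N hNn hcomm
    obtain ⟨j, hj⟩ := IsPGroup.iff_card.mp hp
    have hjn : j ≤ n := hcN j (by rw [hj])
    have h3 : 2 ^ j ≤ 2 ^ n := Nat.pow_le_pow_right (by norm_num) hjn
    rw [hj]
    exact h3.trans (le_trans (Nat.le_add_right _ _) (Nat.le_add_right _ _))

/-- **Lemma C.** -/
theorem lemmaC (c : ℕ) : ∀ n : ℕ, ∃ Φ : ℕ, ∀ (X : Type u) [Group X] [Finite X] (σ : X ≃* X),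
    (∀ x, σ (σ x) = x) → Nat.card (fixS σ) ≤ c → pPrimeCore 2 X = ⊥ →
    (∀ k, 2 ^ k ∣ Nat.card X → k ≤ n) → Nat.card X ≤ Φ := by
  intro n
  induction n with
  | zero =>
    refine ⟨1, ?_⟩
    intro X _ _ σ _ _ hO hn
    have h : (Nat.card X).Coprime 2 := by
      rw [Nat.coprime_comm, Nat.Prime.coprime_iff_not_dvd Nat.prime_two]
      intro h2
      have := hn 1 (by simpa using h2)
      omega
    rw [← pPrimeCore_eq_top_iff, hO] at h
    have h3 : Nat.card X = Nat.card (⊤ : Subgroup X) := Subgroup.card_top.symm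
    rw [h3, ← h]
    simp
  | succ n ih =>
    obtain ⟨Φ₀, hΦ₀⟩ := ih
    set B := 2 ^ (n + 1) + c + (Nat.factorial (2 * c ^ 2)) ^ (n + 1) with hB
    refine ⟨Nat.factorial B * (Φ₀ * B) + 1, ?_⟩
    intro X _ _ σ hσ hc hO hn
    classical
    haveI : Fact (Nat.Prime 2) := ⟨Nat.prime_two⟩
    by_cases htriv : (⊤ : Subgroup X) = ⊥
    · have h3 : Nat.card X = Nat.card (⊤ : Subgroup X) := Subgroup.card_top.symm
      rw [h3, htriv]
      simp
    -- a minimal invariant normal subgroup
    have hfin : ({K : Subgroup X | K ≠ ⊥ ∧ K.Normal ∧ ∀ x ∈ K, σ x ∈ K}).Finite := Set.toFinite _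
    obtain ⟨N, -, hNm⟩ := hfin.exists_le_minimal (a := ⊤)
      ⟨htriv, inferInstance, fun _ _ => trivial⟩
    obtain ⟨hNne, hNn, hNσ⟩ := hNm.prop
    haveI := hNn
    have hmin : ∀ K : Subgroup X, K ≠ ⊥ → K.Normal → (∀ x ∈ K, σ x ∈ K) → K ≤ N → K = N :=
      fun K h1 h2 h3 h4 => le_antisymm h4 (hNm.le_of_le ⟨h1, h2, h3⟩ h4)
    have hNB : Nat.card N ≤ B := card_min_normal_le σ hσ hc hO hn N hNσ hNne hmin
    have h2 : 2 ∣ Nat.card N := by
      by_contra h
      have h1 : (Nat.card N).Coprime 2 := by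
        rw [Nat.coprime_comm, Nat.Prime.coprime_iff_not_dvd Nat.prime_two]
        exact h
      have h3 := le_pPrimeCore hNn h1
      rw [hO, le_bot_iff] at h3
      exact hNne h3
    set C : Subgroup X := (MulAut.conjNormal (H := N)).ker with hC
    haveI hCn : C.Normal := MonoidHom.normal_ker _
    have hCmem : ∀ x, x ∈ C ↔ ∀ n ∈ N, x * n * x⁻¹ = n := mem_ker_conjNormal N
    have hCσ : ∀ x ∈ C, σ x ∈ C := by
      intro x hx
      rw [hCmem] at hx ⊢
      intro m hm
      have := hx (σ m) (hNσ m hm)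
      have h3 := congrArg σ this
      simpa [hσ] using h3
    -- the index of `C`
    have hCidx : C.index ≤ Nat.factorial B := by
      rw [hC, Subgroup.index_ker]
      have h3 : Nat.card (MulAut.conjNormal (H := N)).range ≤ Nat.card (MulAut N) := by
        rw [← Subgroup.card_top (G := MulAut N)]
        exact Subgroup.card_le_of_le le_top
      have h4 : Nat.card (MulAut N) ≤ Nat.card (Equiv.Perm N) :=
        Nat.card_le_card_of_injective (fun α : MulAut N => (α : N ≃* N).toEquiv)
          (fun α β h => MulEquiv.toEquiv_injective h)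
      rw [Nat.card_perm] at h4
      exact h3.trans (h4.trans (Nat.factorial_le hNB))
    -- the quotient
    set σC := resAut σ hσ C hCσ with hσC
    let f : C →* X ⧸ N := (QuotientGroup.mk' N).comp C.subtype
    have hfmem : ∀ z : C, z ∈ f.ker ↔ (z : X) ∈ N := by
      intro z
      rw [MonoidHom.mem_ker]
      exact QuotientGroup.eq_one_iff _
    have hinv : (f.ker).map σC.toMonoidHom = f.ker := by
      apply le_antisymm
      · rintro _ ⟨z, hz, rfl⟩
        exact (hfmem _).mpr (hNσ _ ((hfmem z).mp hz))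
      · intro z hz
        exact ⟨σC z, (hfmem _).mpr (hNσ _ ((hfmem z).mp hz)), Subtype.ext (hσ z)⟩
    have hZc : ∀ z ∈ f.ker, ∀ g : C, z * g = g * z := by
      intro z hz g
      rw [hfmem] at hz
      have h3 := (hCmem g).mp g.2 z hz
      have h4 : (g : X) * z = z * g := mul_inv_eq_iff_eq_mul.mp h3
      exact Subtype.ext h4.symm
    have hZnp : IsPGroup 2 (N ⊓ C : Subgroup X) := by
      refine isPGroup_of_comm_normal hO _ inferInstance ?_
      intro a ha b hb
      exact mul_inv_eq_iff_eq_mul.mp ((hCmem a).mp ha.2 b hb.1)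
    have hZ2 : IsPGroup 2 f.ker := by
      intro z
      have hz : ((z : C) : X) ∈ (N ⊓ C : Subgroup X) := ⟨(hfmem _).mp z.2, (z : C).2⟩
      obtain ⟨k, hk⟩ := hZnp ⟨_, hz⟩
      refine ⟨k, ?_⟩
      have h3 : ((z : C) : X) ^ 2 ^ k = 1 := by
        have := congrArg Subtype.val hk
        simpa using this
      apply Subtype.ext
      apply Subtype.ext
      simpa using h3
    have hOC : pPrimeCore 2 C = ⊥ := by
      have h3 : (pPrimeCore 2 C).map C.subtype ≤ pPrimeCore 2 X :=
        map_pPrimeCore_le_of_isSubnormal (Subgroup.Normal.isSubnormal hCn)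
      rw [hO, le_bot_iff] at h3
      exact (Subgroup.map_eq_bot_iff_of_injective _ C.subtype_injective).mp h3
    have hOQ : pPrimeCore 2 (C ⧸ f.ker) = ⊥ := pPrimeCore_quot_central hOC _ hZc hZ2
    -- the `2`-part
    have hdvd : Nat.card (C ⧸ f.ker) ∣ Nat.card (X ⧸ N) :=
      Subgroup.card_dvd_of_injective _ (QuotientGroup.kerLift_injective f)
    have hXN : Nat.card X = Nat.card (X ⧸ N) * Nat.card N :=
      Subgroup.card_eq_card_quotient_mul_card_subgroup N
    have hnQ : ∀ k, 2 ^ k ∣ Nat.card (C ⧸ f.ker) → k ≤ n := by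
      intro k hk
      have h3 : 2 ^ (k + 1) ∣ Nat.card X := by
        rw [hXN, pow_succ]
        exact Nat.mul_dvd_mul (hk.trans hdvd) h2
      have := hn _ h3
      omega
    have hfixQ : Nat.card (fixS (quotAut σC f.ker hinv)) ≤ c :=
      (card_fixS_quot_le σC f.ker hinv).trans ((card_fixS_res_le σ hσ C hCσ).trans hc)
    have hσQ : ∀ x, quotAut σC f.ker hinv (quotAut σC f.ker hinv x) = x := by
      intro x
      obtain ⟨y, rfl⟩ := QuotientGroup.mk'_surjective f.ker x
      show quotAut σC f.ker hinv (quotAut σC f.ker hinv ((y : C) : C ⧸ f.ker)) = _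
      rw [quotAut_mk, quotAut_mk]
      have : σC (σC y) = y := Subtype.ext (hσ y)
      rw [this]
      rfl
    have hQ := hΦ₀ (C ⧸ f.ker) (quotAut σC f.ker hinv) hσQ hfixQ hOQ hnQ
    -- assembling
    have hZN : Nat.card f.ker ≤ Nat.card N := by
      refine Nat.card_le_card_of_injective
        (fun z => (⟨((z : C) : X), (hfmem _).mp z.2⟩ : N)) ?_
      intro x y h
      have h' := congrArg Subtype.val h
      exact Subtype.ext (Subtype.ext h')
    have hcardC : Nat.card C = Nat.card (C ⧸ f.ker) * Nat.card f.ker :=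
      Subgroup.card_eq_card_quotient_mul_card_subgroup f.ker
    have hXC : Nat.card X = Nat.card C * C.index := (Subgroup.card_mul_index C).symm
    have h5 : Nat.card C ≤ Φ₀ * B := by
      rw [hcardC]
      exact Nat.mul_le_mul hQ (hZN.trans hNB)
    rw [hXC, mul_comm]
    exact (Nat.mul_le_mul hCidx h5).trans (Nat.le_succ _)

end Cfsg.Agent.Lib.Blk89.InvBound
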