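import Mathlib
import Cfsg.Agent.Lib.Blk89.InvBound

/-!
# A four-group with small centralizers

`card_le_of_four`: (Brauer–Wielandt count) `|Y| ≤ |C_Y(a)| |C_Y(b)| |C_Y(ab)|` for a normal subgroup `Y` of odd
order and commuting `a`, `b` with `a² = b² = 1`; `bound_of_four`: a group with commuting `a`, `b` all of
whose centralizers are small and with bounded `2`-part has bounded order.
-/

set_option autoImplicit false
set_option linter.style.haveILetI false
set_option linter.unusedSectionVars false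

namespace Cfsg.Agent.Lib.Blk89.InvFour

open Cfsg Cfsg.Agent.Lib.Blk89.InvAut Cfsg.Agent.Lib.Blk89.InvQuot Cfsg.Agent.Lib.Blk89.InvBound
open Cfsg.Agent.Lib.Core.Basic

universe u

variable {X : Type u} [Group X] [Finite X]

theorem pow_card_mem {Y : Subgroup X} {w : X} (hw : w ∈ Y) : w ^ Nat.card Y = 1 := by
  have h : ((⟨w, hw⟩ : Y) ^ Nat.card Y : Y) = 1 := pow_card_eq_one'
  exact congrArg Subtype.val h

/-- Involutions in the same coset of a subgroup of odd order are conjugate under it. -/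
theorem exists_conj_of_coset (Y : Subgroup X) (hodd : Odd (Nat.card Y)) {t t' : X} (ht : t * t = 1)
    (ht' : t' * t' = 1) (h : t * t' ∈ Y) : ∃ y ∈ Y, t' = y * t * y⁻¹ := by
  obtain ⟨n, hn⟩ := hodd
  set y₀ := t * t' with hy₀
  have htinv : t⁻¹ = t := inv_eq_of_mul_eq_one_left ht
  have ht'inv : t'⁻¹ = t' := inv_eq_of_mul_eq_one_left ht'
  set z := y₀ ^ (n + 1) with hz
  have hzz : z * z = y₀ := by
    rw [hz, ← pow_add]
    have h2 : n + 1 + (n + 1) = Nat.card Y + 1 := by omega
    rw [h2, pow_succ, pow_card_mem h, one_mul]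
  have h1 : t * y₀ * t⁻¹ = y₀⁻¹ := by
    rw [hy₀, htinv, mul_inv_rev, htinv, ht'inv]
    calc t * (t * t') * t = (t * t) * t' * t := by group
      _ = t' * t := by rw [ht, one_mul]
  have h2 : t * z * t⁻¹ = z⁻¹ := by
    rw [hz, ← conj_pow, h1, inv_pow]
  refine ⟨z⁻¹, Y.inv_mem (Y.pow_mem h _), ?_⟩
  have h3 : t' = t * y₀ := by
    rw [hy₀, ← mul_assoc, ht, one_mul]
  rw [inv_inv, ← h2, h3, ← hzz]
  group

/-- Conjugates of `x` under `Y`. -/
noncomputable def conjSet [Fintype X] (Y : Subgroup X) (x : X) : Finset X := by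
  classical
  exact (Finset.univ.filter (fun y => y ∈ Y)).image (fun y => y * x * y⁻¹)

theorem mem_conjSet [Fintype X] (Y : Subgroup X) (x u : X) :
    u ∈ conjSet Y x ↔ ∃ y ∈ Y, y * x * y⁻¹ = u := by
  classical
  unfold conjSet
  simp only [Finset.mem_image, Finset.mem_filter, Finset.mem_univ, true_and]

theorem card_filter_mem [Fintype X] (Y : Subgroup X) [DecidablePred (· ∈ Y)] :
    (Finset.univ.filter (fun y => y ∈ Y)).card = Nat.card Y := by
  rw [Nat.card_eq_fintype_card, Fintype.card_subtype]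

theorem card_le_centralizer_mul_conjSet [Fintype X] (Y : Subgroup X) (x : X) :
    Nat.card Y ≤ Nat.card (Y ⊓ Subgroup.centralizer ({x} : Set X) : Subgroup X) * (conjSet Y x).card := by
  classical
  have h0 := card_filter_mem Y
  rw [← h0]
  refine Finset.card_le_mul_card_image_of_maps_to (f := fun y => y * x * y⁻¹) ?_ _ ?_
  · intro y hy
    exact (mem_conjSet Y x _).mpr ⟨y, (Finset.mem_filter.mp hy).2, rfl⟩
  · intro b _
    refine card_le_of_left_quot _ _ ?_
    intro u hu v hv
    obtain ⟨hu1, hu2⟩ := Finset.mem_filter.mp hu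
    obtain ⟨hv1, hv2⟩ := Finset.mem_filter.mp hv
    have huY : u ∈ Y := (Finset.mem_filter.mp hu1).2
    have hvY : v ∈ Y := (Finset.mem_filter.mp hv1).2
    refine Subgroup.mem_inf.mpr ⟨Y.mul_mem (Y.inv_mem huY) hvY, ?_⟩
    rw [Subgroup.mem_centralizer_singleton_iff]
    have e : u * x * u⁻¹ = v * x * v⁻¹ := hu2.trans hv2.symm
    calc u⁻¹ * v * x = u⁻¹ * (v * x * v⁻¹) * v := by group
      _ = u⁻¹ * (u * x * u⁻¹) * v := by rw [e]
      _ = x * (u⁻¹ * v) := by group

/-- **Brauer–Wielandt count.** -/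
theorem card_le_of_four (Y : Subgroup X) [hYn : Y.Normal] (hodd : Odd (Nat.card Y)) {a b : X}
    (ha : a * a = 1) (hb : b * b = 1) (hab : a * b = b * a) :
    Nat.card Y ≤ Nat.card (Y ⊓ Subgroup.centralizer ({a} : Set X) : Subgroup X) *
      Nat.card (Y ⊓ Subgroup.centralizer ({b} : Set X) : Subgroup X) *
      Nat.card (Y ⊓ Subgroup.centralizer ({a * b} : Set X) : Subgroup X) := by
  classical
  letI := Fintype.ofFinite X
  set K₁ := conjSet Y a with hK₁
  set K₂ := conjSet Y b with hK₂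
  set C₁ := Nat.card (Y ⊓ Subgroup.centralizer ({a} : Set X) : Subgroup X)
  set C₂ := Nat.card (Y ⊓ Subgroup.centralizer ({b} : Set X) : Subgroup X)
  set C₃ := Nat.card (Y ⊓ Subgroup.centralizer ({a * b} : Set X) : Subgroup X) with hC₃
  have h1 : Nat.card Y ≤ C₁ * K₁.card := card_le_centralizer_mul_conjSet Y a
  have h2 : Nat.card Y ≤ C₂ * K₂.card := card_le_centralizer_mul_conjSet Y b
  have hab2 : (a * b) * (a * b) = 1 := by
    calc (a * b) * (a * b) = a * (b * a) * b := by group
      _ = a * (a * b) * b := by rw [hab]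
      _ = (a * a) * (b * b) := by group
      _ = 1 := by rw [ha, hb, one_mul]
  -- elements of `K₁` lie in `aY`
  have hcoset : ∀ t u : X, u ∈ conjSet Y t → t⁻¹ * u ∈ Y := by
    intro t u hu
    obtain ⟨y, hy, rfl⟩ := (mem_conjSet Y t u).mp hu
    have h3 : t⁻¹ * y * t ∈ Y := by
      have := hYn.conj_mem y hy t⁻¹
      simpa using this
    have e : t⁻¹ * (y * t * y⁻¹) = (t⁻¹ * y * t) * y⁻¹ := by group
    rw [e]
    exact Y.mul_mem h3 (Y.inv_mem hy)
  have hinvol : ∀ t u : X, t * t = 1 → u ∈ conjSet Y t → u * u = 1 := by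
    intro t u ht hu
    obtain ⟨y, _, rfl⟩ := (mem_conjSet Y t u).mp hu
    calc y * t * y⁻¹ * (y * t * y⁻¹) = y * (t * t) * y⁻¹ := by group
      _ = 1 := by rw [ht]; group
  -- the products
  set T := K₁ ×ˢ K₂ with hT
  set Tt : Finset X := (Finset.univ.filter (fun y => y ∈ Y)).image (fun y => a * b * y) with hTt
  have hTtc : Tt.card ≤ Nat.card Y := by
    rw [← card_filter_mem Y]
    exact Finset.card_image_le
  have hq : Nat.card Y = Nat.card Y := rfl
  have hmain : T.card ≤ C₃ * Tt.card := by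
    refine Finset.card_le_mul_card_image_of_maps_to (f := fun q : X × X => q.1 * q.2) ?_ _ ?_
    · rintro ⟨u, v⟩ hq
      obtain ⟨hu, hv⟩ := Finset.mem_product.mp hq
      simp only at hu hv
      have hu' := hcoset a u hu
      have hv' := hcoset b v hv
      refine Finset.mem_image.mpr ⟨(a * b)⁻¹ * (u * v), Finset.mem_filter.mpr ⟨Finset.mem_univ _, ?_⟩, by group⟩
      have e : (a * b)⁻¹ * (u * v) = b⁻¹ * (a⁻¹ * u) * b * (b⁻¹ * v) := by group
      rw [e]
      refine Y.mul_mem ?_ hv'
      have := hYn.conj_mem _ hu' b⁻¹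
      simpa using this
    · intro w hw
      -- the involution in `⟨w⟩`
      obtain ⟨s₀, hs₀, rfl⟩ := Finset.mem_image.mp hw
      have hs₀Y : s₀ ∈ Y := (Finset.mem_filter.mp hs₀).2
      set w := a * b * s₀ with hwdef
      obtain ⟨n, hn⟩ := hodd
      set m := Nat.card Y with hm
      -- reduction modulo `Y`
      let π : X →* X ⧸ Y := QuotientGroup.mk' Y
      have hπw : π w = π (a * b) := by
        rw [hwdef, map_mul]
        have : π s₀ = 1 := (QuotientGroup.eq_one_iff s₀).mpr hs₀Y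
        rw [this, mul_one]
      have hπab : π (a * b) * π (a * b) = 1 := by
        rw [← map_mul, hab2, map_one]
      have hw2 : w * w ∈ Y := by
        have : π (w * w) = 1 := by rw [map_mul, hπw, hπab]
        exact (QuotientGroup.eq_one_iff _).mp this
      have hwm2 : w ^ m * w ^ m = 1 := by
        rw [← pow_add, ← two_mul, pow_mul, pow_two]
        exact pow_card_mem hw2
      have habwm : (a * b) * w ^ m ∈ Y := by
        have h3 : π (w ^ m) = π (a * b) := by
          rw [map_pow, hπw, hn, pow_succ, pow_mul, pow_two, hπab, one_pow, one_mul]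
        have h4 : π ((a * b) * w ^ m) = 1 := by
          rw [map_mul, h3, hπab]
        exact (QuotientGroup.eq_one_iff _).mp h4
      obtain ⟨y, hy, hyw⟩ := exists_conj_of_coset Y ⟨n, hn⟩ hab2 hwm2 habwm
      -- bounding the fibre
      set F := T.filter (fun q => q.1 * q.2 = w) with hF
      have hFinj : F.card = (F.image (fun q => y⁻¹ * q.1 * y)).card := by
        symm
        apply Finset.card_image_of_injOn
        intro q hq q' hq' e
        obtain ⟨_, hqw⟩ := Finset.mem_filter.mp hq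
        obtain ⟨_, hqw'⟩ := Finset.mem_filter.mp hq'
        have e' : q.1 = q'.1 := by
          have e2 : y⁻¹ * q.1 * y = y⁻¹ * q'.1 * y := e
          exact mul_left_cancel (mul_right_cancel e2)
        apply Prod.ext e'
        have h3 : q.1 * q.2 = q'.1 * q'.2 := hqw.trans hqw'.symm
        rw [e'] at h3
        exact mul_left_cancel h3
      rw [hFinj]
      apply card_le_of_left_quot
      intro x₁ hx₁ x₂ hx₂
      obtain ⟨q, hq, rfl⟩ := Finset.mem_image.mp hx₁
      obtain ⟨q', hq', rfl⟩ := Finset.mem_image.mp hx₂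
      obtain ⟨hqT, hqw⟩ := Finset.mem_filter.mp hq
      obtain ⟨hqT', hqw'⟩ := Finset.mem_filter.mp hq'
      obtain ⟨hu, hv⟩ := Finset.mem_product.mp hqT
      obtain ⟨hu', hv'⟩ := Finset.mem_product.mp hqT'
      -- each first component commutes with `w ^ m`
      have hcomm : ∀ u v : X, u ∈ K₁ → v ∈ K₂ → u * v = w → u * w ^ m = w ^ m * u := by
        intro u v hu hv e
        have hu2 := hinvol a u ha hu
        have hv2 := hinvol b v hb hv
        have huinv : u⁻¹ = u := inv_eq_of_mul_eq_one_left hu2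
        have hvinv : v⁻¹ = v := inv_eq_of_mul_eq_one_left hv2
        have hwminv : (w ^ m)⁻¹ = w ^ m := inv_eq_of_mul_eq_one_left hwm2
        have h3 : u * w * u⁻¹ = w⁻¹ := by
          rw [← e, mul_inv_rev, huinv, hvinv]
          calc u * (u * v) * u = (u * u) * v * u := by group
            _ = v * u := by rw [hu2, one_mul]
        have h4 : u * w ^ m * u⁻¹ = w ^ m := by
          rw [← conj_pow, h3, inv_pow, hwminv]
        exact mul_inv_eq_iff_eq_mul.mp h4
      have hc1 := hcomm _ _ hu hv hqw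
      have hc2 := hcomm _ _ hu' hv' hqw'
      rw [hyw] at hc1 hc2
      have hY1 : q.1⁻¹ * q'.1 ∈ Y := by
        have h3 := hcoset a _ hu
        have h4 := hcoset a _ hu'
        have e : q.1⁻¹ * q'.1 = (a⁻¹ * q.1)⁻¹ * (a⁻¹ * q'.1) := by group
        rw [e]
        exact Y.mul_mem (Y.inv_mem h3) h4
      refine Subgroup.mem_inf.mpr ⟨?_, ?_⟩
      · have e : (y⁻¹ * q.1 * y)⁻¹ * (y⁻¹ * q'.1 * y) = y⁻¹ * (q.1⁻¹ * q'.1) * y := by group
        rw [e]
        exact Y.mul_mem (Y.mul_mem (Y.inv_mem hy) hY1) hy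
      · rw [Subgroup.mem_centralizer_singleton_iff]
        have e1 : q.1 * (y * (a * b) * y⁻¹) = (y * (a * b) * y⁻¹) * q.1 := hc1
        have e2 : q'.1 * (y * (a * b) * y⁻¹) = (y * (a * b) * y⁻¹) * q'.1 := hc2
        have e3 : (y⁻¹ * q.1 * y) * (a * b) = (a * b) * (y⁻¹ * q.1 * y) := by
          calc (y⁻¹ * q.1 * y) * (a * b) = y⁻¹ * (q.1 * (y * (a * b) * y⁻¹)) * y := by group
            _ = y⁻¹ * ((y * (a * b) * y⁻¹) * q.1) * y := by rw [e1]
            _ = _ := by group
        have e4 : (y⁻¹ * q'.1 * y) * (a * b) = (a * b) * (y⁻¹ * q'.1 * y) := by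
          calc (y⁻¹ * q'.1 * y) * (a * b) = y⁻¹ * (q'.1 * (y * (a * b) * y⁻¹)) * y := by group
            _ = y⁻¹ * ((y * (a * b) * y⁻¹) * q'.1) * y := by rw [e2]
            _ = _ := by group
        have c3 : Commute (y⁻¹ * q.1 * y) (a * b) := e3
        have c4 : Commute (y⁻¹ * q'.1 * y) (a * b) := e4
        exact c3.inv_left.mul_left c4
  have hTc : T.card = K₁.card * K₂.card := Finset.card_product _ _
  have hY0 : 0 < Nat.card Y := Nat.card_pos
  have hfinal : Nat.card Y * Nat.card Y ≤ (C₁ * C₂ * C₃) * Nat.card Y := by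
    calc Nat.card Y * Nat.card Y ≤ (C₁ * K₁.card) * (C₂ * K₂.card) := Nat.mul_le_mul h1 h2
      _ = C₁ * C₂ * (K₁.card * K₂.card) := by ring
      _ ≤ C₁ * C₂ * (C₃ * Tt.card) := by
        apply Nat.mul_le_mul_left
        rw [← hTc]
        exact hmain
      _ ≤ C₁ * C₂ * (C₃ * Nat.card Y) := by
        apply Nat.mul_le_mul_left
        exact Nat.mul_le_mul_left _ hTtc
      _ = _ := by ring
  exact Nat.le_of_mul_le_mul_right hfinal hY0

/-- Fixed points of conjugation by `ā` in `X / Y`. -/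
theorem card_fixS_conj_quot_le (Y : Subgroup X) [hYn : Y.Normal] (hodd : Odd (Nat.card Y)) {a : X}
    (ha : a * a = 1) :
    Nat.card (fixS (MulAut.conj ((a : X) : X ⧸ Y))) ≤ Nat.card (Subgroup.centralizer ({a} : Set X)) := by
  classical
  set F := fixS (MulAut.conj ((a : X) : X ⧸ Y)) with hF
  set π : X →* X ⧸ Y := QuotientGroup.mk' Y with hπ
  have hle : F ≤ (Subgroup.centralizer ({a} : Set X)).map π := by
    intro xb hxb
    obtain ⟨x, rfl⟩ := QuotientGroup.mk'_surjective Y xb
    have h1 : π a * π x * (π a)⁻¹ = π x := hxb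
    have ht : (x⁻¹ * a * x) * (x⁻¹ * a * x) = 1 := by
      calc (x⁻¹ * a * x) * (x⁻¹ * a * x) = x⁻¹ * (a * a) * x := by group
        _ = 1 := by rw [ha]; group
    have hmem : a * (x⁻¹ * a * x) ∈ Y := by
      have h4 : π (a * (x⁻¹ * a * x)) = 1 := by
        have hinv : (π a)⁻¹ = π a := inv_eq_of_mul_eq_one_left (by rw [← map_mul, ha, map_one])
        have h5 : π a * π x * π a = π x := by
          rw [← hinv] at h1 ⊢
          simpa [hinv] using h1
        simp only [map_mul, map_inv]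
        calc π a * ((π x)⁻¹ * π a * π x) = π a * ((π x)⁻¹ * π a * (π a * π x * π a)) := by rw [h5]
          _ = π a * (π x)⁻¹ * (π a * π a) * π x * π a := by group
          _ = π a * (π x)⁻¹ * π x * π a := by
            have : π a * π a = 1 := by rw [← map_mul, ha, map_one]
            rw [this, mul_one]
          _ = π a * π a := by group
          _ = 1 := by rw [← map_mul, ha, map_one]
      exact (QuotientGroup.eq_one_iff _).mp h4
    obtain ⟨y, hy, hyx⟩ := exists_conj_of_coset Y hodd ha ht hmem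
    refine ⟨x * y, ?_, ?_⟩
    · rw [SetLike.mem_coe, Subgroup.mem_centralizer_singleton_iff]
      calc x * y * a = x * (y * a * y⁻¹) * y := by group
        _ = x * (x⁻¹ * a * x) * y := by rw [← hyx]
        _ = a * (x * y) := by group
    · have : π y = 1 := (QuotientGroup.eq_one_iff y).mpr hy
      rw [map_mul, this, mul_one]
  have h1 := Subgroup.card_le_of_le hle
  refine h1.trans ?_
  exact Nat.card_le_card_of_surjective (π.subgroupMap _) (π.subgroupMap_surjective _)

/-- **A four-group with small centralizers.** -/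
theorem bound_of_four (c n : ℕ) : ∃ B : ℕ, ∀ (X : Type u) [Group X] [Finite X] (a b : X),
    a * a = 1 → b * b = 1 → a * b = b * a →
    Nat.card (Subgroup.centralizer ({a} : Set X)) ≤ c →
    Nat.card (Subgroup.centralizer ({b} : Set X)) ≤ c →
    Nat.card (Subgroup.centralizer ({a * b} : Set X)) ≤ c →
    (∀ k, 2 ^ k ∣ Nat.card X → k ≤ n) → Nat.card X ≤ B := by
  obtain ⟨Φ, hΦ⟩ := lemmaC.{u} c n
  refine ⟨Φ * (c * c * c), ?_⟩
  intro X _ _ a b ha hb hab hca hcb hcab hn
  set Y := pPrimeCore 2 X with hY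
  haveI hYn : Y.Normal := Subgroup.normal_of_characteristic _
  have hcop : (Nat.card Y).Coprime 2 := pPrimeCore_coprime
  have hodd : Odd (Nat.card Y) := Nat.Coprime.odd_of_right hcop
  have h1 := card_le_of_four Y hodd ha hb hab
  have hYc : Nat.card Y ≤ c * c * c := by
    refine h1.trans (Nat.mul_le_mul (Nat.mul_le_mul ?_ ?_) ?_)
    · exact (Subgroup.card_le_of_le inf_le_right).trans hca
    · exact (Subgroup.card_le_of_le inf_le_right).trans hcb
    · exact (Subgroup.card_le_of_le inf_le_right).trans hcab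
  have hσ : ∀ x : X ⧸ Y, MulAut.conj ((a : X) : X ⧸ Y) (MulAut.conj ((a : X) : X ⧸ Y) x) = x := by
    intro x
    have h2 : ((a : X) : X ⧸ Y) * ((a : X) : X ⧸ Y) = 1 := by
      rw [← QuotientGroup.mk_mul, ha, QuotientGroup.mk_one]
    have hinv : ((a : X) : X ⧸ Y)⁻¹ = ((a : X) : X ⧸ Y) := inv_eq_of_mul_eq_one_left h2
    simp only [MulAut.conj_apply, hinv]
    calc ((a : X) : X ⧸ Y) * (((a : X) : X ⧸ Y) * x * ((a : X) : X ⧸ Y)) * ((a : X) : X ⧸ Y)
        = (((a : X) : X ⧸ Y) * ((a : X) : X ⧸ Y)) * x * (((a : X) : X ⧸ Y) * ((a : X) : X ⧸ Y)) := by group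
      _ = x := by rw [h2]; group
  have hfix := (card_fixS_conj_quot_le Y hodd ha).trans hca
  have hO : pPrimeCore 2 (X ⧸ Y) = ⊥ := pPrimeCore_quotient_eq_bot
  have hXY : Nat.card X = Nat.card (X ⧸ Y) * Nat.card Y :=
    Subgroup.card_eq_card_quotient_mul_card_subgroup Y
  have hnQ : ∀ k, 2 ^ k ∣ Nat.card (X ⧸ Y) → k ≤ n := by
    intro k hk
    exact hn k (by rw [hXY]; exact hk.trans (Nat.dvd_mul_right _ _))
  have hQ := hΦ (X ⧸ Y) _ hσ hfix hO hnQ
  rw [hXY]
  exact Nat.mul_le_mul hQ hYc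

end Cfsg.Agent.Lib.Blk89.InvFour
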