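import Cfsg.Agent.Lib.Char.ClassSum
import Mathlib

/-!
# Landau's theorem: boundedly many groups with a given number of conjugacy classes
-/

set_option autoImplicit false

namespace Cfsg.Agent.Lib.Blk89.Landau

open scoped BigOperators

/-- Bounded denominators for unit fractions. -/
theorem exists_bound_unit_fractions (k : ℕ) : ∀ q : ℚ, 0 < q → ∃ B : ℕ, ∀ n : Fin k → ℕ,
    (∀ i, 0 < n i) → (∑ i, (1 : ℚ) / n i) = q → ∀ i, n i ≤ B := by
  induction k with
  | zero =>
    intro q _
    exact ⟨0, fun n _ _ i => i.elim0⟩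
  | succ k ih =>
    intro q hq
    classical
    let Bf : ℕ → ℕ := fun m =>
      if h : 0 < q - 1 / (m : ℚ) then Classical.choose (ih _ h) else 0
    let m₀ : ℕ := ⌈((k + 1 : ℕ) : ℚ) / q⌉₊
    refine ⟨m₀ + ∑ m ∈ Finset.range (m₀ + 1), Bf m, ?_⟩
    intro n hn hsum i
    -- the position of the minimum
    obtain ⟨i₀, -, hi₀⟩ := Finset.exists_min_image (Finset.univ : Finset (Fin (k + 1))) n
      ⟨0, Finset.mem_univ _⟩
    have hpos₀ : (0 : ℚ) < n i₀ := by exact_mod_cast hn i₀
    have hle : q ≤ ((k + 1 : ℕ) : ℚ) / n i₀ := by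
      rw [← hsum]
      calc ∑ i, (1 : ℚ) / n i ≤ ∑ _i : Fin (k + 1), (1 : ℚ) / n i₀ := by
            refine Finset.sum_le_sum fun j _ => ?_
            have h1 : (n i₀ : ℚ) ≤ n j := by exact_mod_cast hi₀ j (Finset.mem_univ _)
            exact one_div_le_one_div_of_le hpos₀ h1
        _ = ((k + 1 : ℕ) : ℚ) / n i₀ := by
            rw [Finset.sum_const, Finset.card_univ, Fintype.card_fin, nsmul_eq_mul]
            ring
    have hm : n i₀ ≤ m₀ := by
      have h1 : (n i₀ : ℚ) ≤ ((k + 1 : ℕ) : ℚ) / q := by
        rw [le_div_iff₀ hq]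
        rw [le_div_iff₀ hpos₀] at hle
        linarith
      have h2 := h1.trans (Nat.le_ceil _)
      exact_mod_cast h2
    have hsingle : ∀ m ∈ Finset.range (m₀ + 1), Bf m ≤ ∑ m ∈ Finset.range (m₀ + 1), Bf m :=
      fun m hm => Finset.single_le_sum (f := Bf) (fun _ _ => Nat.zero_le _) hm
    by_cases hii : i = i₀
    · subst hii
      exact hm.trans (Nat.le_add_right _ _)
    · -- remove the minimum
      obtain ⟨j, rfl⟩ := Fin.exists_succAbove_eq hii
      have hsum' : ∑ j, (1 : ℚ) / n (i₀.succAbove j) = q - 1 / (n i₀ : ℚ) := by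
        rw [← hsum, Fin.sum_univ_succAbove _ i₀]
        ring
      have hpos' : 0 < q - 1 / (n i₀ : ℚ) := by
        rw [← hsum']
        refine Finset.sum_pos (fun j _ => ?_) ⟨j, Finset.mem_univ _⟩
        have : (0 : ℚ) < n (i₀.succAbove j) := by exact_mod_cast hn _
        positivity
      have hB := Classical.choose_spec (ih _ hpos') (fun j => n (i₀.succAbove j)) (fun j => hn _) hsum' j
      have hBf : Bf (n i₀) = Classical.choose (ih _ hpos') := by
        simp only [Bf]
        rw [dif_pos hpos']
      have h3 := hsingle (n i₀) (Finset.mem_range.mpr (Nat.lt_succ_of_le hm))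
      rw [hBf] at h3
      exact (hB.trans h3).trans (Nat.le_add_left _ _)

universe u

/-- The class equation in rational form. -/
theorem sum_one_div_centralizer {G : Type u} [Group G] [Finite G] [Fintype (ConjClasses G)] :
    ∑ C : ConjClasses G, (1 : ℚ) / Nat.card (Subgroup.centralizer ({C.out} : Set G)) = 1 := by
  classical
  have := Fintype.ofFinite G
  have hcard : (Nat.card G : ℚ) ≠ 0 := by exact_mod_cast Nat.card_pos.ne'
  have h1 : ∀ C : ConjClasses G, (1 : ℚ) / Nat.card (Subgroup.centralizer ({C.out} : Set G)) =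
      (Nat.card {x : G // IsConj C.out x} : ℚ) / Nat.card G := by
    intro C
    have h2 := Cfsg.Agent.Lib.Char.ClassSum.card_class_mul_card_centralizer C.out
    have h3 : (Nat.card (Subgroup.centralizer ({C.out} : Set G)) : ℚ) ≠ 0 := by
      exact_mod_cast Nat.card_pos.ne'
    rw [← h2]
    push_cast
    field_simp
  simp_rw [h1]
  rw [← Finset.sum_div, div_eq_one_iff_eq hcard]
  -- the classes partition the group
  have h4 : ∀ C : ConjClasses G, (Nat.card {x : G // IsConj C.out x} : ℚ) =
      ∑ x : G, if ConjClasses.mk x = C then (1 : ℚ) else 0 := by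
    intro C
    rw [Nat.card_eq_fintype_card, Fintype.card_subtype, Finset.sum_boole]
    congr 2
    ext x
    simp only [Finset.mem_filter, Finset.mem_univ, true_and]
    constructor
    · intro h
      have h5 : ConjClasses.mk x = ConjClasses.mk C.out := (ConjClasses.mk_eq_mk_iff_isConj.mpr h.symm)
      rw [h5]
      exact Quotient.out_eq C
    · intro h
      have h5 : ConjClasses.mk C.out = ConjClasses.mk x := by
        rw [h]
        exact Quotient.out_eq C
      exact ConjClasses.mk_eq_mk_iff_isConj.mp h5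
  simp_rw [h4]
  rw [Finset.sum_comm]
  have h6 : ∀ x : G, (∑ C : ConjClasses G, if ConjClasses.mk x = C then (1 : ℚ) else 0) = 1 := by
    intro x
    rw [Finset.sum_ite_eq, if_pos (Finset.mem_univ _)]
  simp_rw [h6]
  rw [Finset.sum_const, Finset.card_univ, nsmul_eq_mul, mul_one, Nat.card_eq_fintype_card]

/-- **Landau's theorem**: the order of a finite group is bounded by a function of its number of
conjugacy classes. -/
theorem exists_card_le (k : ℕ) : ∃ N : ℕ, ∀ (G : Type u) [Group G] [Finite G],
    Nat.card (ConjClasses G) = k → Nat.card G ≤ N := by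
  obtain ⟨B, hB⟩ := exists_bound_unit_fractions k 1 one_pos
  refine ⟨B, ?_⟩
  intro G _ _ hk
  classical
  have := Fintype.ofFinite G
  have := Fintype.ofFinite (ConjClasses G)
  have hk' : Fintype.card (ConjClasses G) = k := by
    rw [← Nat.card_eq_fintype_card, hk]
  let e : Fin k ≃ ConjClasses G := (Fintype.equivFinOfCardEq hk').symm
  let n : Fin k → ℕ := fun i => Nat.card (Subgroup.centralizer ({(e i).out} : Set G))
  have hn : ∀ i, 0 < n i := fun i => Nat.card_pos
  have hsum : ∑ i, (1 : ℚ) / n i = 1 := by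
    have h1 := sum_one_div_centralizer (G := G)
    rw [← Equiv.sum_comp e] at h1
    exact h1
  have h2 := hB n hn hsum (e.symm (ConjClasses.mk 1))
  have h3 : (e (e.symm (ConjClasses.mk 1))).out = 1 := by
    rw [Equiv.apply_symm_apply]
    have h4 : ConjClasses.mk (Quotient.out (ConjClasses.mk (1 : G))) = ConjClasses.mk (1 : G) := Quotient.out_eq _
    have h5 := ConjClasses.mk_eq_mk_iff_isConj.mp h4
    exact isConj_one_right.mp h5.symm
  have h6 : n (e.symm (ConjClasses.mk 1)) = Nat.card G := by
    simp only [n]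
    rw [h3]
    have h7 : Subgroup.centralizer ({(1 : G)} : Set G) = ⊤ := by
      ext x
      simp [Subgroup.mem_centralizer_singleton_iff]
    rw [h7]
    exact Nat.card_congr Subgroup.topEquiv.toEquiv
  rw [← h6]
  exact h2

end Cfsg.Agent.Lib.Blk89.Landau
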